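import Cfsg.Agent.H33.Blk.Code
import Cfsg.Agent.H33.Blk.CLData

/-!
# Conjugacy classes of `M24` up to inversion (helper33)

`cl_main`: every element of `M24` is conjugate in `M24` to one of the 21 representatives `rhoN j`
or to its inverse.  The proof conjugates five suitable points to the base points (5-transitivity)
and looks the resulting element up in a table of explicit conjugators.
-/

set_option autoImplicit false

namespace Cfsg.Agent.H33.Blk

open Cfsg Cfsg.Agent.H9 Cfsg.Agent.H33 Cfsg.Agent.H94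

/-- 8-bit fields -/
def f8 (T i : ℕ) : ℕ := Nat.land (Nat.shiftRight T (Nat.mul 8 i)) 255

theorem RR_ok : allB (fun j => chkInv (fldG RR j) (fldG RRI j) && chkM24 (fldG RR j)) 21 = true := by
  decide +kernel

theorem RR_chk {j : ℕ} (hj : j < 21) : chkInv (fldG RR j) (fldG RRI j) = true := by
  have h := (allB_iff _ _).mp RR_ok j hj
  simp only [Bool.and_eq_true] at h
  exact h.1

theorem RR_m24 {j : ℕ} (hj : j < 21) : chkM24 (fldG RR j) = true := by
  have h := (allB_iff _ _).mp RR_ok j hj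
  simp only [Bool.and_eq_true] at h
  exact h.2

/-- the class representatives -/
def rhoN (j : ℕ) : Equiv.Perm GolayPt :=
  if h : j < 21 then permOf (fldG RR j) (fldG RRI j) (RR_chk h) else 1

theorem rhoN_rep {j : ℕ} (hj : j < 21) : Rep (fldG RR j) (rhoN j) := by
  unfold rhoN
  rw [dif_pos hj]
  exact rep_permOf _ _ _

theorem rhoN_rep_inv {j : ℕ} (hj : j < 21) : Rep (fldG RRI j) (rhoN j)⁻¹ := by
  unfold rhoN
  rw [dif_pos hj]
  exact rep_permOf_inv _ _ _

theorem rhoN_mem (j : ℕ) : rhoN j ∈ M24 := by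
  unfold rhoN
  split_ifs with h
  · exact permOf_mem_M24 _ _ _ (RR_m24 h)
  · exact one_mem _

/-- packed targets: representatives and their inverses -/
def RT (τ : ℕ) : ℕ := bif Nat.blt τ 21 then fldG RR τ else fldG RRI (Nat.sub τ 21)

/-- targets -/
def rhoT (τ : ℕ) : Equiv.Perm GolayPt := if τ < 21 then rhoN τ else (rhoN (τ - 21))⁻¹

theorem rep_RT {τ : ℕ} (h : τ < 42) : Rep (RT τ) (rhoT τ) := by
  unfold RT rhoT
  by_cases h21 : τ < 21
  · have hb : Nat.blt τ 21 = true := by rw [Nat.blt_eq]; exact h21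
    rw [hb, if_pos h21]
    exact rhoN_rep h21
  · have hb : Nat.blt τ 21 = false := by
      rw [Bool.eq_false_iff, Ne, Nat.blt_eq]; exact h21
    rw [hb, if_neg h21]
    have e : Nat.sub τ 21 = τ - 21 := rfl
    simp only [cond_false, e]
    exact rhoN_rep_inv (by omega)

/-- a table entry: `C` has the prescribed images of the base points, and all elements of its
coset of the stabiliser of the base points have conjugators to targets -/
def entF (C CI D DI T q i0 i1 i2 i3 i4 : ℕ) : Bool :=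
  chkInv C CI && (chkM24 C && (Nat.beq (lk C 0) i0 && (Nat.beq (lk C 1) i1 &&
    (Nat.beq (lk C 2) i2 && (Nat.beq (lk C 3) i3 && (Nat.beq (lk C 4) i4 &&
      allB (fun j => Nat.blt (f8 T (Nat.add (Nat.mul q 48) j)) 42 &&
        conjOK (fldG D (Nat.add (Nat.mul q 48) j)) (fldG DI (Nat.add (Nat.mul q 48) j))
          (mulN C (fldG u5 j)) (RT (f8 T (Nat.add (Nat.mul q 48) j)))) 48))))))

theorem nf_of {C CI D DI T q i0 i1 i2 i3 i4 : ℕ} (h : entF C CI D DI T q i0 i1 i2 i3 i4 = true)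
    {g : Equiv.Perm GolayPt} (hg : g ∈ M24) (h0 : g (gPt 0) = gPt i0) (h1 : g (gPt 1) = gPt i1)
    (h2 : g (gPt 2) = gPt i2) (h3 : g (gPt 3) = gPt i3) (h4 : g (gPt 4) = gPt i4) :
    ∃ d ∈ M24, ∃ τ < 42, d * g * d⁻¹ = rhoT τ := by
  unfold entF at h
  simp only [Bool.and_eq_true] at h
  obtain ⟨hCI, hCm, e0, e1, e2, e3, e4, hall⟩ := h
  obtain ⟨j, hj, hrep⟩ := coset5 hCI hCm hg (fun i hi => by
    interval_cases i
    · rw [Nat.eq_of_beq_eq_true e0]; exact h0
    · rw [Nat.eq_of_beq_eq_true e1]; exact h1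
    · rw [Nat.eq_of_beq_eq_true e2]; exact h2
    · rw [Nat.eq_of_beq_eq_true e3]; exact h3
    · rw [Nat.eq_of_beq_eq_true e4]; exact h4)
  have hj' := (allB_iff _ _).mp hall j hj
  simp only [Bool.and_eq_true] at hj'
  obtain ⟨hτ, hcj⟩ := hj'
  rw [Nat.blt_eq] at hτ
  obtain ⟨d, hd, e⟩ := conj_of_ok hcj hrep (rep_RT hτ)
  exact ⟨d, hd, _, hτ, e⟩

set_option maxRecDepth 100000 in
theorem chk5 : allB (fun q => (Nat.beq q 1 || (Nat.beq q 2 || (Nat.beq q 3 || Nat.beq q 4))) ||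
    entF (fldG C5 q) (fldG C5I q) D5 D5I T5 q 1 2 3 4 q) 24 = true := by decide +kernel

set_option maxRecDepth 100000 in
theorem chk4 : allB (fun q => (Nat.beq q 0 || (Nat.beq q 1 || (Nat.beq q 2 || Nat.beq q 3))) ||
    entF (fldG C4 q) (fldG C4I q) D4 D4I T4 q 1 2 3 0 q) 24 = true := by decide +kernel

set_option maxRecDepth 100000 in
theorem chk32 : entF (fldG C32 0) (fldG C32I 0) D32 D32I T32 0 1 2 0 4 3 = true := by decide +kernel

theorem nbeq {a b : ℕ} (h : a ≠ b) : Nat.beq a b = false := by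
  cases hc : Nat.beq a b
  · rfl
  · exact absurd (Nat.eq_of_beq_eq_true hc) h

theorem gPt_ne {i j : ℕ} (hi : i < 24) (hj : j < 24) (h : i ≠ j) : gPt i ≠ gPt j := by
  intro e
  have := congrArg gIdx e
  rw [gIdx_gPt hi, gIdx_gPt hj] at this
  exact h this

/-- normal form: `0 → 1 → 2 → 3 → 4` -/
theorem nf5 {g : Equiv.Perm GolayPt} (hg : g ∈ M24) (h0 : g (gPt 0) = gPt 1)
    (h1 : g (gPt 1) = gPt 2) (h2 : g (gPt 2) = gPt 3) (h3 : g (gPt 3) = gPt 4) :
    ∃ d ∈ M24, ∃ τ < 42, d * g * d⁻¹ = rhoT τ := by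
  obtain ⟨q, hq⟩ : ∃ q, q = gIdx (g (gPt 4)) := ⟨_, rfl⟩
  have hq24 : q < 24 := by rw [hq]; exact gIdx_lt _
  have h4 : g (gPt 4) = gPt q := by rw [hq, gPt_gIdx]
  have hne : ∀ i i' : ℕ, i < 4 → i' < 24 → g (gPt i) = gPt i' → q ≠ i' := by
    intro i i' hi hi' e hcon
    rw [hcon, ← e] at h4
    exact gPt_ne (by norm_num : 4 < 24) (by omega : i < 24) (by omega) (g.injective h4)
  have hc := (allB_iff _ _).mp chk5 q hq24
  rw [nbeq (hne 0 1 (by norm_num) (by norm_num) h0), nbeq (hne 1 2 (by norm_num) (by norm_num) h1),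
    nbeq (hne 2 3 (by norm_num) (by norm_num) h2),
    nbeq (hne 3 4 (by norm_num) (by norm_num) h3)] at hc
  simp only [Bool.or_false, Bool.false_or] at hc
  exact nf_of hc hg h0 h1 h2 h3 h4

/-- normal form: `0 → 1 → 2 → 3 → 0` -/
theorem nf4 {g : Equiv.Perm GolayPt} (hg : g ∈ M24) (h0 : g (gPt 0) = gPt 1)
    (h1 : g (gPt 1) = gPt 2) (h2 : g (gPt 2) = gPt 3) (h3 : g (gPt 3) = gPt 0) :
    ∃ d ∈ M24, ∃ τ < 42, d * g * d⁻¹ = rhoT τ := by
  obtain ⟨q, hq⟩ : ∃ q, q = gIdx (g (gPt 4)) := ⟨_, rfl⟩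
  have hq24 : q < 24 := by rw [hq]; exact gIdx_lt _
  have h4 : g (gPt 4) = gPt q := by rw [hq, gPt_gIdx]
  have hne : ∀ i i' : ℕ, i < 4 → i' < 24 → g (gPt i) = gPt i' → q ≠ i' := by
    intro i i' hi hi' e hcon
    rw [hcon, ← e] at h4
    exact gPt_ne (by norm_num : 4 < 24) (by omega : i < 24) (by omega) (g.injective h4)
  have hc := (allB_iff _ _).mp chk4 q hq24
  rw [nbeq (hne 3 0 (by norm_num) (by norm_num) h3), nbeq (hne 0 1 (by norm_num) (by norm_num) h0),
    nbeq (hne 1 2 (by norm_num) (by norm_num) h1),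
    nbeq (hne 2 3 (by norm_num) (by norm_num) h2)] at hc
  simp only [Bool.or_false, Bool.false_or] at hc
  exact nf_of hc hg h0 h1 h2 h3 h4

/-- normal form: `0 → 1 → 2 → 0`, `3 ↔ 4` -/
theorem nf32 {g : Equiv.Perm GolayPt} (hg : g ∈ M24) (h0 : g (gPt 0) = gPt 1)
    (h1 : g (gPt 1) = gPt 2) (h2 : g (gPt 2) = gPt 0) (h3 : g (gPt 3) = gPt 4)
    (h4 : g (gPt 4) = gPt 3) : ∃ d ∈ M24, ∃ τ < 42, d * g * d⁻¹ = rhoT τ :=
  nf_of chk32 hg h0 h1 h2 h3 h4

theorem inj5 {a b c d e : GolayPt} (hab : a ≠ b) (hac : a ≠ c) (had : a ≠ d) (hae : a ≠ e)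
    (hbc : b ≠ c) (hbd : b ≠ d) (hbe : b ≠ e) (hcd : c ≠ d) (hce : c ≠ e) (hde : d ≠ e) :
    Function.Injective ![a, b, c, d, e] := by
  intro i j h
  fin_cases i <;> fin_cases j <;> simp_all

/-- conjugating five points to the base points -/
theorem conj5 (g : Equiv.Perm GolayPt) (x : Fin 5 ↪ GolayPt) :
    ∃ a ∈ M24, ∀ i i' : Fin 5, g (x i) = x i' → (a⁻¹ * g * a) (gPt i) = gPt i' := by
  obtain ⟨a, ha, hax⟩ := exists_map_base5 x
  refine ⟨a, ha, fun i i' h => ?_⟩
  show a⁻¹ (g (a (gPt i))) = gPt i'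
  rw [hax i, h, ← hax i']
  exact a.symm_apply_apply _

theorem fin_conj {g a d r : Equiv.Perm GolayPt} (ha : a ∈ M24) (hd : d ∈ M24)
    (e : d * (a⁻¹ * g * a) * d⁻¹ = r) : ∃ k ∈ M24, k * g * k⁻¹ = r :=
  ⟨d * a⁻¹, mul_mem hd (inv_mem ha), conj_trans e⟩

theorem RR_vals : fldG RR 0 = idN ∧ fldG RR 1 = r8 ∧ fldG RR 2 = r0 ∧ fldG RR 3 = t6 ∧
    fldG RR 4 = t0 := by decide +kernel

theorem rho0 : rhoN 0 = 1 := by
  have h := rhoN_rep (by norm_num : 0 < 21)
  rw [RR_vals.1] at h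
  exact rep_uniq h rep_idN

theorem rho1 : rhoN 1 = r8e := by
  have h := rhoN_rep (by norm_num : 1 < 21)
  rw [RR_vals.2.1] at h
  exact rep_uniq h r8e_rep

theorem rho2 : rhoN 2 = r0e := by
  have h := rhoN_rep (by norm_num : 2 < 21)
  rw [RR_vals.2.2.1] at h
  exact rep_uniq h r0e_rep

theorem rho3 : rhoN 3 = t6e := by
  have h := rhoN_rep (by norm_num : 3 < 21)
  rw [RR_vals.2.2.2.1] at h
  exact rep_uniq h t6e_rep

theorem rho4 : rhoN 4 = t0e := by
  have h := rhoN_rep (by norm_num : 4 < 21)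
  rw [RR_vals.2.2.2.2] at h
  exact rep_uniq h t0e_rep

theorem rhoT_lt {τ : ℕ} (h : τ < 21) : rhoT τ = rhoN τ := by
  unfold rhoT
  rw [if_pos h]

/-- elements with `g * g = 1` -/
theorem cl_two {g : Equiv.Perm GolayPt} (hg : g ∈ M24) (h2 : g * g = 1) :
    ∃ k ∈ M24, ∃ τ < 42, k * g * k⁻¹ = rhoT τ := by
  by_cases h1 : g = 1
  · refine ⟨1, one_mem _, 0, by norm_num, ?_⟩
    rw [rhoT_lt (by norm_num), rho0, h1]
    group
  · have ho : orderOf g = 2 := orderOf_eq_prime (by rw [pow_two]; exact h2) h1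
    obtain ⟨k, hk, e | e⟩ := invol_conj hg ho
    · exact ⟨k, hk, 1, by norm_num, by rw [rhoT_lt (by norm_num), rho1]; exact e⟩
    · exact ⟨k, hk, 2, by norm_num, by rw [rhoT_lt (by norm_num), rho2]; exact e⟩

/-- elements with `g * g * g = 1` -/
theorem cl_three {g : Equiv.Perm GolayPt} (hg : g ∈ M24) (h3 : g * g * g = 1) :
    ∃ k ∈ M24, ∃ τ < 42, k * g * k⁻¹ = rhoT τ := by
  by_cases h1 : g = 1
  · refine ⟨1, one_mem _, 0, by norm_num, ?_⟩
    rw [rhoT_lt (by norm_num), rho0, h1]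
    group
  · haveI : Fact (Nat.Prime 3) := ⟨by norm_num⟩
    have ho : orderOf g = 3 := orderOf_eq_prime (by rw [pow_succ, pow_two]; exact h3) h1
    obtain ⟨k, hk, e | e⟩ := ord3_conj hg ho
    · exact ⟨k, hk, 3, by norm_num, by rw [rhoT_lt (by norm_num), rho3]; exact e⟩
    · exact ⟨k, hk, 4, by norm_num, by rw [rhoT_lt (by norm_num), rho4]; exact e⟩

theorem exists_fifth (a b c d : GolayPt) : ∃ s : GolayPt, s ≠ a ∧ s ≠ b ∧ s ≠ c ∧ s ≠ d := by
  by_contra hcon
  have hsub : (Finset.univ : Finset GolayPt) ⊆ {a, b, c, d} := by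
    intro s _
    by_contra hs
    simp only [Finset.mem_insert, Finset.mem_singleton, not_or] at hs
    exact hcon ⟨s, hs.1, hs.2.1, hs.2.2.1, hs.2.2.2⟩
  have h1 := Finset.card_le_card hsub
  rw [Finset.card_univ, card_golayPt] at h1
  have h2 : ({a, b, c, d} : Finset GolayPt).card ≤ 4 := Finset.card_le_four
  omega

theorem cl_aux {g : Equiv.Perm GolayPt} (hg : g ∈ M24) :
    ∃ k ∈ M24, ∃ τ < 42, k * g * k⁻¹ = rhoT τ := by
  by_cases hA : ∃ p, g p ≠ p ∧ g (g p) ≠ p ∧ g (g (g p)) ≠ p ∧ g (g (g (g p))) ≠ p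
  · obtain ⟨p, h1, h2, h3, h4⟩ := hA
    let x : Fin 5 ↪ GolayPt := ⟨![p, g p, g (g p), g (g (g p)), g (g (g (g p)))],
      inj5 h1.symm h2.symm h3.symm h4.symm
        (fun h => h1 (g.injective h).symm) (fun h => h2 (g.injective h).symm)
        (fun h => h3 (g.injective h).symm)
        (fun h => h1 (g.injective (g.injective h)).symm)
        (fun h => h2 (g.injective (g.injective h)).symm)
        (fun h => h1 (g.injective (g.injective (g.injective h))).symm)⟩
    obtain ⟨a, ha, hc⟩ := conj5 g x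
    obtain ⟨d, hd, τ, hτ, e⟩ := nf5 (conj_mem ha hg) (hc 0 1 rfl) (hc 1 2 rfl) (hc 2 3 rfl)
      (hc 3 4 rfl)
    obtain ⟨k, hk, e'⟩ := fin_conj ha hd e
    exact ⟨k, hk, τ, hτ, e'⟩
  · have hA' : ∀ p, g p ≠ p → g (g p) ≠ p → g (g (g p)) ≠ p → g (g (g (g p))) = p :=
      fun p a b c => by
        by_contra d
        exact hA ⟨p, a, b, c, d⟩
    by_cases hB : ∃ p, g (g p) ≠ p ∧ g (g (g (g p))) = p
    · obtain ⟨p, h2, h4⟩ := hB
      have h1 : g p ≠ p := fun h => h2 (by rw [h, h])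
      have h3 : g (g (g p)) ≠ p := fun h => h1 (by rw [h] at h4; exact h4)
      obtain ⟨s, s0, s1, s2, s3⟩ := exists_fifth p (g p) (g (g p)) (g (g (g p)))
      let x : Fin 5 ↪ GolayPt := ⟨![p, g p, g (g p), g (g (g p)), s],
        inj5 h1.symm h2.symm h3.symm s0.symm
          (fun h => h1 (g.injective h).symm) (fun h => h2 (g.injective h).symm) s1.symm
          (fun h => h1 (g.injective (g.injective h)).symm) s2.symm s3.symm⟩
      obtain ⟨a, ha, hc⟩ := conj5 g x
      obtain ⟨d, hd, τ, hτ, e⟩ := nf4 (conj_mem ha hg) (hc 0 1 rfl) (hc 1 2 rfl) (hc 2 3 rfl)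
        (hc 3 0 h4)
      obtain ⟨k, hk, e'⟩ := fin_conj ha hd e
      exact ⟨k, hk, τ, hτ, e'⟩
    · have hB' : ∀ p, g (g (g (g p))) = p → g (g p) = p := fun p h => by
        by_contra h2
        exact hB ⟨p, h2, h⟩
      have hstar : ∀ p, g p = p ∨ g (g p) = p ∨ g (g (g p)) = p := by
        intro p
        by_cases h1 : g p = p
        · exact Or.inl h1
        · by_cases h2 : g (g p) = p
          · exact Or.inr (Or.inl h2)
          · by_cases h3 : g (g (g p)) = p
            · exact Or.inr (Or.inr h3)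
            · exact absurd (hB' p (hA' p h1 h2 h3)) h2
      by_cases hC3 : ∃ p, g p ≠ p ∧ g (g (g p)) = p
      · by_cases hC2 : ∃ s, g s ≠ s ∧ g (g s) = s
        · obtain ⟨p, h1, h3⟩ := hC3
          obtain ⟨s, t1, t2⟩ := hC2
          have h2 : g (g p) ≠ p := fun h => h1 (by rw [h] at h3; exact h3)
          have u0 : s ≠ p := fun h => h2 (by rw [h] at t2; exact t2)
          have u1 : s ≠ g p := fun h => by
            rw [h, h3] at t2
            exact h1 t2.symm
          have u2 : s ≠ g (g p) := fun h => by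
            rw [h, h3] at t2
            exact h1 (g.injective t2).symm
          have v0 : g s ≠ p := fun h => by
            rw [← h3] at h
            exact u2 (g.injective h)
          have v1 : g s ≠ g p := fun h => u0 (g.injective h)
          have v2 : g s ≠ g (g p) := fun h => u1 (g.injective h)
          let x : Fin 5 ↪ GolayPt := ⟨![p, g p, g (g p), s, g s],
            inj5 h1.symm h2.symm u0.symm v0.symm
              (fun h => h1 (g.injective h).symm) u1.symm v1.symm u2.symm v2.symm t1.symm⟩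
          obtain ⟨a, ha, hc⟩ := conj5 g x
          obtain ⟨d, hd, τ, hτ, e⟩ := nf32 (conj_mem ha hg) (hc 0 1 rfl) (hc 1 2 rfl) (hc 2 0 h3)
            (hc 3 4 rfl) (hc 4 3 t2)
          obtain ⟨k, hk, e'⟩ := fin_conj ha hd e
          exact ⟨k, hk, τ, hτ, e'⟩
        · have hC2' : ∀ s, g (g s) = s → g s = s := fun s h => by
            by_contra h1
            exact hC2 ⟨s, h1, h⟩
          apply cl_three hg
          refine Equiv.ext fun p => ?_
          show g (g (g p)) = p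
          rcases hstar p with h | h | h
          · rw [h, h, h]
          · rw [hC2' p h, hC2' p h, hC2' p h]
          · exact h
      · have hC3' : ∀ p, g (g (g p)) = p → g p = p := fun p h => by
          by_contra h1
          exact hC3 ⟨p, h1, h⟩
        apply cl_two hg
        refine Equiv.ext fun p => ?_
        show g (g p) = p
        rcases hstar p with h | h | h
        · rw [h, h]
        · exact h
        · rw [hC3' p h, hC3' p h]

/-- every element of `M24` is conjugate to a representative or to the inverse of one -/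
theorem cl_main {g : Equiv.Perm GolayPt} (hg : g ∈ M24) :
    ∃ k ∈ M24, ∃ j < 21, k * g * k⁻¹ = rhoN j ∨ k * g * k⁻¹ = (rhoN j)⁻¹ := by
  obtain ⟨k, hk, τ, hτ, e⟩ := cl_aux hg
  by_cases h : τ < 21
  · exact ⟨k, hk, τ, h, Or.inl (by rw [e, rhoT_lt h])⟩
  · refine ⟨k, hk, τ - 21, by omega, Or.inr ?_⟩
    rw [e]
    unfold rhoT
    rw [if_neg h]

end Cfsg.Agent.H33.Blk
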