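import Mathlib

/-!
# A parity lemma for class-algebra structure constants (helper33)

For a subset `Kc` of a finite group closed under conjugation and inversion and commuting elements
`a`, `b` with `(a * b⁻¹) ^ (2 ^ k) = 1`, the number of `x ∈ Kc` with `x⁻¹ * (a * b) ∈ Kc` has the
parity of the number of `z` with `z * z = a * b⁻¹` and `b * z ∈ Kc` (`par_gen`).
-/

set_option autoImplicit false

namespace Cfsg.Agent.H33.Blk

open Finset

/-- an involution on a finset: parity of the number of fixed points -/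
theorem card_invol_mod {α : Type*} [DecidableEq α] (X : Finset α) (f : α → α)
    (hf : ∀ x ∈ X, f x ∈ X) (hff : ∀ x ∈ X, f (f x) = x) :
    X.card % 2 = (X.filter fun x => f x = x).card % 2 := by
  have h1 := Finset.card_filter_add_card_filter_not (s := X) (fun x => f x = x)
  have h2 : ((X.filter fun x => ¬ f x = x).card : ZMod 2) = 0 := by
    have h := Finset.sum_involution (s := X.filter fun x => ¬ f x = x) (f := fun _ => (1 : ZMod 2))
      (fun x _ => f x) (fun a ha => by decide)
      (fun a ha _ => (Finset.mem_filter.mp ha).2)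
      (fun a ha => by
        rw [Finset.mem_filter] at ha ⊢
        refine ⟨hf a ha.1, ?_⟩
        rw [hff a ha.1]
        exact fun h => ha.2 h.symm)
      (fun a ha => hff a (Finset.mem_filter.mp ha).1)
    simpa using h
  have h3 : 2 ∣ (X.filter fun x => ¬ f x = x).card := by
    have := (ZMod.natCast_eq_zero_iff _ 2).mp h2
    exact this
  omega

/-- a map of 2-power order on a finset: parity of the number of fixed points -/
theorem card_iter_mod {α : Type*} [DecidableEq α] (n : ℕ) : ∀ (X : Finset α) (f : α → α),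
    (∀ x ∈ X, f x ∈ X) → (∀ x ∈ X, f^[2 ^ n] x = x) →
    X.card % 2 = (X.filter fun x => f x = x).card % 2 := by
  induction n with
  | zero =>
    intro X f _ hn
    have : (X.filter fun x => f x = x) = X := by
      apply Finset.filter_true_of_mem
      intro x hx
      simpa using hn x hx
    rw [this]
  | succ n ih =>
    intro X f hf hn
    have e2 : f^[2] = f ∘ f := rfl
    have h1 := ih X (f ∘ f) (fun x hx => hf _ (hf x hx)) (fun x hx => by
      have := hn x hx
      rw [pow_succ, mul_comm, Function.iterate_mul, e2] at this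
      exact this)
    have h2 := card_invol_mod (X.filter fun x => (f ∘ f) x = x) f
      (fun x hx => by
        rw [Finset.mem_filter] at hx ⊢
        refine ⟨hf x hx.1, ?_⟩
        show f (f (f x)) = f x
        have := hx.2
        simp only [Function.comp_apply] at this
        rw [this])
      (fun x hx => (Finset.mem_filter.mp hx).2)
    have h3 : ((X.filter fun x => (f ∘ f) x = x).filter fun x => f x = x)
        = X.filter fun x => f x = x := by
      ext x
      simp only [Finset.mem_filter, Function.comp_apply]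
      constructor
      · rintro ⟨⟨hx, -⟩, h⟩; exact ⟨hx, h⟩
      · rintro ⟨hx, h⟩; exact ⟨⟨hx, by rw [h, h]⟩, h⟩
    rw [h1, h2, h3]

/-- the parity lemma -/
theorem par_gen {G : Type*} [Group G] [Fintype G] [DecidableEq G] (Kc : G → Prop)
    [DecidablePred Kc] (hconj : ∀ g h : G, Kc (h * g * h⁻¹) ↔ Kc g) (hinv : ∀ g : G, Kc g⁻¹ ↔ Kc g)
    (a b : G) (hab : a * b = b * a) (k : ℕ) (hk : (a * b⁻¹) ^ (2 ^ k) = 1) :
    (univ.filter fun x : G => Kc x ∧ Kc (x⁻¹ * (a * b))).card % 2
      = (univ.filter fun z : G => z * z = a * b⁻¹ ∧ Kc (b * z)).card % 2 := by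
  set θ : G → G := fun x => a * x⁻¹ * b with hθ
  set X : Finset G := univ.filter fun x : G => Kc x ∧ Kc (x⁻¹ * (a * b)) with hX
  have hab' : b⁻¹ * a = a * b⁻¹ := by
    rw [inv_mul_eq_iff_eq_mul, ← mul_assoc, ← hab, mul_assoc, mul_inv_cancel, mul_one]
  -- θ x is conjugate to x⁻¹ * (a * b)
  have hθ1 : ∀ x : G, Kc (θ x) ↔ Kc (x⁻¹ * (a * b)) := by
    intro x
    have e : θ x = a * (x⁻¹ * (a * b)) * a⁻¹ := by
      show a * x⁻¹ * b = a * (x⁻¹ * (a * b)) * a⁻¹
      rw [hab]; group
    rw [e, hconj]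
  have hθ2 : ∀ x : G, Kc ((θ x)⁻¹ * (a * b)) ↔ Kc x := by
    intro x
    have e : (θ x)⁻¹ * (a * b) = b⁻¹ * x * b⁻¹⁻¹ := by
      show (a * x⁻¹ * b)⁻¹ * (a * b) = b⁻¹ * x * b⁻¹⁻¹
      group
    rw [e, hconj]
  have hmaps : ∀ x ∈ X, θ x ∈ X := by
    intro x hx
    rw [hX, Finset.mem_filter] at hx ⊢
    exact ⟨Finset.mem_univ _, (hθ1 x).mpr hx.2.2, (hθ2 x).mpr hx.2.1⟩
  have hsq : ∀ x : G, θ (θ x) = (a * b⁻¹) * x * (a * b⁻¹)⁻¹ := by
    intro x
    show a * (a * x⁻¹ * b)⁻¹ * b = (a * b⁻¹) * x * (a * b⁻¹)⁻¹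
    have e1 : (a * b⁻¹)⁻¹ = a⁻¹ * b := by
      rw [mul_inv_rev, inv_inv]
      rw [eq_inv_mul_iff_mul_eq, ← mul_assoc, hab, mul_assoc, mul_inv_cancel, mul_one]
    rw [e1]; group
  have hit : ∀ m : ℕ, ∀ x : G, (θ ∘ θ)^[m] x = (a * b⁻¹) ^ m * x * ((a * b⁻¹) ^ m)⁻¹ := by
    intro m
    induction m with
    | zero => intro x; simp
    | succ m ih =>
      intro x
      rw [Function.iterate_succ_apply', ih, Function.comp_apply, hsq, pow_succ']
      generalize a * b⁻¹ = c
      group
  have hper : ∀ x ∈ X, θ^[2 ^ (k + 1)] x = x := by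
    intro x _
    have e2 : θ^[2] = θ ∘ θ := rfl
    rw [pow_succ, mul_comm, Function.iterate_mul, e2, hit, hk]
    simp
  rw [card_iter_mod (k + 1) X θ hmaps hper]
  congr 1
  apply Finset.card_nbij' (fun x => b⁻¹ * x) (fun z => b * z)
  · intro x hx
    have hx' := Finset.mem_coe.mp hx
    rw [Finset.mem_filter, hX, Finset.mem_filter] at hx'
    obtain ⟨⟨-, hx1, -⟩, hfix⟩ := hx'
    show b⁻¹ * x ∈ ((univ.filter fun z : G => z * z = a * b⁻¹ ∧ Kc (b * z) : Finset G) : Set G)
    rw [Finset.mem_coe, Finset.mem_filter]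
    refine ⟨Finset.mem_univ _, ?_, by rw [mul_inv_cancel_left]; exact hx1⟩
    have h1 : a * x⁻¹ * b = x := hfix
    have h2 : x * b⁻¹ * x = a := by
      calc x * b⁻¹ * x = (a * x⁻¹ * b) * b⁻¹ * x := by rw [h1]
        _ = a := by group
    calc b⁻¹ * x * (b⁻¹ * x) = b⁻¹ * (x * b⁻¹ * x) := by group
      _ = b⁻¹ * a := by rw [h2]
      _ = a * b⁻¹ := hab'
  · intro z hz
    have hz' := Finset.mem_coe.mp hz
    rw [Finset.mem_filter] at hz'
    obtain ⟨-, hz1, hz2⟩ := hz'
    show b * z ∈ ((X.filter fun x => θ x = x : Finset G) : Set G)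
    have hfix : θ (b * z) = b * z := by
      show a * (b * z)⁻¹ * b = b * z
      have h3 : a = b * (z * z) := by rw [hz1, ← hab', mul_inv_cancel_left]
      calc a * (b * z)⁻¹ * b = a * z⁻¹ * (b⁻¹ * b) := by group
        _ = a * z⁻¹ := by rw [inv_mul_cancel, mul_one]
        _ = b * (z * z) * z⁻¹ := by rw [← h3]
        _ = b * z := by group
    rw [Finset.mem_coe, Finset.mem_filter, hX, Finset.mem_filter]
    refine ⟨⟨Finset.mem_univ _, hz2, ?_⟩, hfix⟩
    rw [← hθ1, hfix]
    exact hz2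
  · intro x _
    show b * (b⁻¹ * x) = x
    rw [mul_inv_cancel_left]
  · intro z _
    show b⁻¹ * (b * z) = z
    rw [inv_mul_cancel_left]

end Cfsg.Agent.H33.Blk
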