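import Cfsg.Agent.H33.Blk.InvT

/-!
# Parity masks over the list of the elements of order at most 2 of `M24`: definitions (helper33)

`passG F B`: the parity mask of the invariants of the products `B * z`, for `z` in the list with
`F z`, computed chunk by chunk.
-/

set_option autoImplicit false

namespace Cfsg.Agent.H33.Blk

open Cfsg Cfsg.Agent.H9 Cfsg.Agent.H33 Cfsg.Agent.H94

/-- the contribution of the list element `t` -/
def stepG (F : ℕ → Bool) (B t : ℕ) : ℕ := bif F t then Nat.shiftLeft 1 (cdM B t) else 0

/-- the contribution of the chunk `c` -/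
def chunkG (F : ℕ → Bool) (B c : ℕ) : ℕ :=
  strictN (ichunk c) (fun K => parX (fun n => strictN (fldG K n) (stepG F B)) 208)

/-- the contribution of the chunks `13 d, …, 13 d + 12` -/
def rngG (F : ℕ → Bool) (B d : ℕ) : ℕ := parX (fun c => chunkG F B (Nat.add (Nat.mul d 13) c)) 13

/-- the parity mask of the invariants of the products `B * z`, `z` in the list with `F z` -/
def passG (F : ℕ → Bool) (B : ℕ) : ℕ := parX (fun d => rngG F B d) 16

end Cfsg.Agent.H33.Blk
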