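import Cfsg.Agent.H33.Blk.Inv
import Cfsg.Agent.H33.Blk.Par
import Cfsg.Agent.H33.Blk.PassDef

/-!
# Parity masks over the list of the elements of order at most 2 of `M24` (helper33)

* `parX` lemmas, `testBit_parX`: the bit `k` of an xor of powers of two is the parity of the number
  of exponents equal to `k`.
* `passG F B`: the parity mask of the invariants of the products `B * z`, for `z` in the list with
  `F z`, computed chunk by chunk; `passG_eq`.
* `par_filter`: the elements of square one with `b * z` in a class, counted modulo 2, can be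
  restricted to the centraliser of an involution that centralises or inverts `b`.
* `colI_gen`: the resulting formula for the coefficients of the square of a class sum.
-/

set_option autoImplicit false

namespace Cfsg.Agent.H33.Blk

open Cfsg Cfsg.Agent.H9 Cfsg.Agent.H33 Cfsg.Agent.H94 Cfsg.Agent.S5608

/-! ### xor-accumulation -/

theorem parX_succ (g : ℕ → ℕ) (a : ℕ) : parX g (a + 1) = Nat.xor (g a) (parX g a) := rfl

theorem parX_congr {g g' : ℕ → ℕ} {a : ℕ} (h : ∀ d < a, g d = g' d) : parX g a = parX g' a := by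
  induction a with
  | zero => rfl
  | succ a ih =>
    rw [parX_succ, parX_succ, h a (Nat.lt_succ_self a),
      ih (fun d hd => h d (Nat.lt_succ_of_lt hd))]

theorem parX_add (g : ℕ → ℕ) (m b : ℕ) :
    parX g (m + b) = Nat.xor (parX (fun n => g (m + n)) b) (parX g m) := by
  induction b with
  | zero =>
    show parX g m = 0 ^^^ parX g m
    rw [Nat.zero_xor]
  | succ b ih =>
    have h1 : parX g (m + (b + 1)) = g (m + b) ^^^ parX g (m + b) := rfl
    have h2 : parX (fun n => g (m + n)) (b + 1) = g (m + b) ^^^ parX (fun n => g (m + n)) b := rfl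
    rw [h1, h2, ih]
    show g (m + b) ^^^ (parX (fun n => g (m + n)) b ^^^ parX g m)
      = (g (m + b) ^^^ parX (fun n => g (m + n)) b) ^^^ parX g m
    rw [Nat.xor_assoc]

theorem parX_mul (g : ℕ → ℕ) (a b : ℕ) :
    parX g (a * b) = parX (fun d => parX (fun n => g (d * b + n)) b) a := by
  induction a with
  | zero => simp [parX]
  | succ a ih =>
    rw [Nat.succ_mul, parX_add, ih, parX_succ]

theorem testBit_parX (p : ℕ → Bool) (f : ℕ → ℕ) (n k : ℕ) :
    (parX (fun i => bif p i then Nat.shiftLeft 1 (f i) else 0) n).testBit k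
      = decide (countB (fun i => p i && Nat.beq (f i) k) n % 2 = 1) := by
  induction n with
  | zero => simp [parX, countB]
  | succ n ih =>
    have h1 : parX (fun i => bif p i then Nat.shiftLeft 1 (f i) else 0) (n + 1)
        = (bif p n then 1 <<< f n else 0)
          ^^^ parX (fun i => bif p i then Nat.shiftLeft 1 (f i) else 0) n := rfl
    have h2 : countB (fun i => p i && Nat.beq (f i) k) (n + 1)
        = (cond (p n && Nat.beq (f n) k) 1 0) + countB (fun i => p i && Nat.beq (f i) k) n := rfl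
    rw [h1, h2, Nat.testBit_xor, ih]
    cases hp : p n
    · simp
    · simp only [cond_true, Bool.true_and]
      rw [Nat.one_shiftLeft, Nat.testBit_two_pow]
      by_cases hk : f n = k
      · have hb : Nat.beq (f n) k = true := by rw [hk]; exact Nat.beq_refl _
        rw [hb]
        simp only [hk, decide_true, cond_true, Bool.true_xor]
        rcases Nat.mod_two_eq_zero_or_one (countB (fun i => p i && Nat.beq (f i) k) n) with h | h
        · have h' : (1 + countB (fun i => p i && Nat.beq (f i) k) n) % 2 = 1 := by omega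
          simp [h, h']
        · have h' : (1 + countB (fun i => p i && Nat.beq (f i) k) n) % 2 = 0 := by omega
          simp [h, h']
      · have hb : Nat.beq (f n) k = false := by
          cases hc : Nat.beq (f n) k
          · rfl
          · exact absurd (Nat.eq_of_beq_eq_true hc) hk
        rw [hb]
        simp [hk]

/-! ### the passes over the list -/

theorem chunkG_eq (F : ℕ → Bool) (B c : ℕ) :
    parX (fun n => stepG F B (Tinv (c * 208 + n))) 208 = chunkG F B c := by
  unfold chunkG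
  rw [strictN_eq]
  apply parX_congr
  intro n hn
  rw [strictN_eq, Tinv_chunk c n hn]

theorem passG_eq (F : ℕ → Bool) (B : ℕ) :
    parX (fun n => stepG F B (Tinv n)) 43264 = passG F B := by
  have e1 : parX (fun n => stepG F B (Tinv n)) 43264
      = parX (fun n => stepG F B (Tinv n)) (208 * 208) := rfl
  rw [e1, parX_mul, parX_congr (fun c _ => chunkG_eq F B c)]
  have e2 : parX (fun c => chunkG F B c) 208 = parX (fun c => chunkG F B c) (16 * 13) := rfl
  rw [e2, parX_mul]
  rfl

theorem forall_lt_16 (P : ℕ → Prop) (h0 : P 0) (h1 : P 1) (h2 : P 2) (h3 : P 3) (h4 : P 4)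
    (h5 : P 5) (h6 : P 6) (h7 : P 7) (h8 : P 8) (h9 : P 9) (h10 : P 10) (h11 : P 11) (h12 : P 12)
    (h13 : P 13) (h14 : P 14) (h15 : P 15) : ∀ d < 16, P d := by
  intro d hd
  interval_cases d <;> assumption

/-! ### restricting to the centraliser of an involution -/

open Finset in
theorem par_filter {G : Type*} [Group G] [Fintype G] [DecidableEq G] (Kc : G → Prop)
    [DecidablePred Kc] (hconj : ∀ g h : G, Kc (h * g * h⁻¹) ↔ Kc g) (hinv : ∀ g : G, Kc g⁻¹ ↔ Kc g)
    (b w : G) (hw : w * w = 1) (hwb : w * b * w⁻¹ = b ∨ w * b * w⁻¹ = b⁻¹) :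
    (univ.filter fun z : G => z * z = 1 ∧ Kc (b * z)).card % 2
      = (univ.filter fun z : G => z * z = 1 ∧ w * z = z * w ∧ Kc (b * z)).card % 2 := by
  have hwi : w⁻¹ = w := inv_eq_of_mul_eq_one_left hw
  have key : ∀ z : G, z * z = 1 → (Kc (b * (w * z * w⁻¹)) ↔ Kc (b * z)) := by
    intro z hz
    have hzi : z⁻¹ = z := inv_eq_of_mul_eq_one_left hz
    rcases hwb with h | h
    · have hc : w * b = b * w := by
        calc w * b = (w * b * w⁻¹) * w := by group
          _ = b * w := by rw [h]
      have e : b * (w * z * w⁻¹) = w * (b * z) * w⁻¹ := by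
        calc b * (w * z * w⁻¹) = (b * w) * z * w⁻¹ := by group
          _ = (w * b) * z * w⁻¹ := by rw [hc]
          _ = w * (b * z) * w⁻¹ := by group
      rw [e, hconj]
    · have hc : b * w = w * b⁻¹ := by
        have h' : w * b⁻¹ = (w * b * w⁻¹)⁻¹ * w := by group
        rw [h', h, inv_inv]
      have e : b * (w * z * w⁻¹) = w * (b⁻¹ * z) * w⁻¹ := by
        calc b * (w * z * w⁻¹) = (b * w) * z * w⁻¹ := by group
          _ = (w * b⁻¹) * z * w⁻¹ := by rw [hc]
          _ = w * (b⁻¹ * z) * w⁻¹ := by group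
      have e2 : (b⁻¹ * z)⁻¹ = b⁻¹ * (b * z) * b⁻¹⁻¹ := by
        rw [mul_inv_rev, hzi]; group
      rw [e, hconj, ← hinv, e2, hconj]
  have h := card_invol_mod (univ.filter fun z : G => z * z = 1 ∧ Kc (b * z))
    (fun z => w * z * w⁻¹)
    (by
      intro z hz
      rw [mem_filter] at hz ⊢
      refine ⟨mem_univ _, ?_, (key z hz.2.1).mpr hz.2.2⟩
      calc w * z * w⁻¹ * (w * z * w⁻¹) = w * (z * z) * w⁻¹ := by group
        _ = 1 := by rw [hz.2.1]; group)
    (by
      intro z _
      show w * (w * z * w⁻¹) * w⁻¹ = z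
      calc w * (w * z * w⁻¹) * w⁻¹ = (w * w) * z * (w * w)⁻¹ := by group
        _ = z := by rw [hw]; group)
  rw [h]
  congr 1
  apply congrArg Finset.card
  ext z
  simp only [mem_filter, mem_univ, true_and]
  constructor
  · rintro ⟨⟨h1, h2⟩, h3⟩
    refine ⟨h1, ?_, h2⟩
    calc w * z = (w * z * w⁻¹) * w := by group
      _ = z * w := by rw [h3]
  · rintro ⟨h1, h2, h3⟩
    refine ⟨⟨h1, h3⟩, ?_⟩
    rw [h2]
    group

/-! ### the class invariant on `M24` -/

/-- the class invariant on `M24` -/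
def cdG (x : ↥M24) : ℕ := cdP x.1

theorem cdG_conj (g h : ↥M24) : cdG (h * g * h⁻¹) = cdG g := cdP_conj g.1 h.1

theorem cdG_inv (g : ↥M24) : cdG g⁻¹ = cdG g := cdP_inv g.1

theorem mod_two_ite (c : ℕ) : c % 2 = if decide (c % 2 = 1) = true then 1 else 0 := by
  rcases Nat.mod_two_eq_zero_or_one c with h | h <;> simp [h]

theorem colI_count [Fintype ↥M24] [DecidableEq ↥M24] (b : ↥M24) (Rr : ↥M24 → Prop)
    [DecidablePred Rr] (B : ℕ) (hB : Rep B b.1)
    (F : ℕ → Bool) (hF : ∀ (t : ℕ) (z : ↥M24), Rep t z.1 → (F t = true ↔ Rr z)) (κ : ℕ) :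
    (Finset.univ.filter fun z : ↥M24 => z * z = 1 ∧ Rr z ∧ cdG (b * z) = κ).card
      = countB (fun n => F (Tinv n) && Nat.beq (cdM B (Tinv n)) κ) 43264 := by
  apply card_filter_enum (fun z : ↥M24 => z * z = 1 ∧ Rr z ∧ cdG (b * z) = κ) 43264
    (fun n z => Rep (Tinv n) z.1) (fun n => F (Tinv n) && Nat.beq (cdM B (Tinv n)) κ)
  · intro n hn hp
    simp only [Bool.and_eq_true] at hp
    obtain ⟨z, hz, hr⟩ := enumI_mem hn
    refine ⟨z, ⟨hz, (hF _ z hr).mp hp.1, ?_⟩, hr⟩
    have h := Nat.eq_of_beq_eq_true hp.2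
    rw [cdM_eq, cdN_eq (rep_mulN hB hr)] at h
    exact h
  · intro m hm n hn a h1 h2
    exact Tinv_inj hm hn (canon_rep (Tinv_lt _) (Tinv_lt _) h1 h2)
  · rintro a ⟨h1, h2, h3⟩
    obtain ⟨n, hn, hr⟩ := enumI_surj a h1
    refine ⟨n, hn, ?_, hr⟩
    simp only [Bool.and_eq_true]
    refine ⟨(hF _ a hr).mpr h2, ?_⟩
    rw [cdM_eq, cdN_eq (rep_mulN hB hr)]
    have h4 : cdP (b.1 * a.1) = κ := h3
    rw [h4]
    exact Nat.beq_refl _
  · intro n a a' h1 h2
    exact Subtype.ext (rep_uniq h1 h2)

/-- the mask gives the parities of the numbers of `z` with `z * z = 1`, `Rr z` and `b * z` in a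
class -/
theorem colI_mask [Fintype ↥M24] [DecidableEq ↥M24] (b : ↥M24) (Rr : ↥M24 → Prop)
    [DecidablePred Rr] (B : ℕ) (hB : Rep B b.1)
    (F : ℕ → Bool) (hF : ∀ (t : ℕ) (z : ↥M24), Rep t z.1 → (F t = true ↔ Rr z)) (κ : ℕ) :
    (Finset.univ.filter fun z : ↥M24 => z * z = 1 ∧ Rr z ∧ cdG (b * z) = κ).card % 2
      = if (passG F B).testBit κ = true then 1 else 0 := by
  have h3 := colI_count b Rr B hB F hF κ
  have h4 := testBit_parX (fun n => F (Tinv n)) (fun n => cdM B (Tinv n)) 43264 κ
  have h5 := passG_eq F B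
  have h6 : (parX (fun n => stepG F B (Tinv n)) 43264).testBit κ
      = decide (countB (fun n => F (Tinv n) && Nat.beq (cdM B (Tinv n)) κ) 43264 % 2 = 1) := h4
  rw [h5] at h6
  rw [h6, ← h3]
  exact mod_two_ite _

/-- the first step: elements of square one -/
theorem colI_start [Fintype ↥M24] [DecidableEq ↥M24] (b : ↥M24) (κ : ℕ) :
    (Finset.univ.filter fun x : ↥M24 => cdG x = κ ∧ cdG (x⁻¹ * (b * b)) = κ).card % 2
      = (Finset.univ.filter fun z : ↥M24 => z * z = 1 ∧ cdG (b * z) = κ).card % 2 := by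
  have h1 := par_gen (fun g : ↥M24 => cdG g = κ) (fun g h => by rw [cdG_conj])
    (fun g => by rw [cdG_inv]) b b rfl 0 (by simp)
  have e : (Finset.univ.filter fun z : ↥M24 => z * z = b * b⁻¹ ∧ cdG (b * z) = κ)
      = (Finset.univ.filter fun z : ↥M24 => z * z = 1 ∧ cdG (b * z) = κ) := by
    apply Finset.filter_congr
    intro z _
    rw [mul_inv_cancel]
  rw [e] at h1
  exact h1

/-- the coefficients modulo 2 of the square of a class sum, at an element `b * b` -/
theorem colI_gen [Fintype ↥M24] (b w : ↥M24) (B : ℕ) (hB : Rep B b.1) (F : ℕ → Bool)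
    (hw : w * w = 1) (hwb : w * b * w⁻¹ = b ∨ w * b * w⁻¹ = b⁻¹)
    (hF : ∀ (t : ℕ) (z : ↥M24), Rep t z.1 → (F t = true ↔ w * z = z * w)) (κ : ℕ) :
    (Finset.univ.filter fun x : ↥M24 => cdG x = κ ∧ cdG (x⁻¹ * (b * b)) = κ).card % 2
      = if (passG F B).testBit κ = true then 1 else 0 := by
  classical
  have h1 := colI_start b κ
  have h2 := par_filter (fun g : ↥M24 => cdG g = κ) (fun g h => by rw [cdG_conj])
    (fun g => by rw [cdG_inv]) b w hw hwb
  have h3 := colI_mask b (fun z => w * z = z * w) B hB F hF κ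
  rw [← h3, ← h2, ← h1]

end Cfsg.Agent.H33.Blk
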