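import Cfsg.Agent.H33.Blk.CL
import Cfsg.Agent.H33.Blk.SqData

/-!
# The square roots of the two involution representatives of `M24` (helper33)

`fldG sqA n`, `n < 224`, are the packed forms of the elements `z` of `M24` with `z * z = r8e`, and
`fldG sqB n`, `n < 80`, those of the `z` with `z * z = r0e`, without repetition.  Completeness: a
square root `z` of the involution `t` moves the base point `0` along a 4-cycle `0, a, t 0, t a`;
conjugating this cycle to `0, 1, 2, 3` by a tabulated element leaves the `20 * 48` elements of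
`M24` with the cycle `0, 1, 2, 3`, which are checked one by one.
-/

set_option autoImplicit false

namespace Cfsg.Agent.H33.Blk

open Cfsg Cfsg.Agent.H9 Cfsg.Agent.H33 Cfsg.Agent.H94

/-- the elements of `M24` with the cycle `0 → 1 → 2 → 3 → 0` -/
theorem cos4 {g : Equiv.Perm GolayPt} (hg : g ∈ M24) (h0 : g (gPt 0) = gPt 1)
    (h1 : g (gPt 1) = gPt 2) (h2 : g (gPt 2) = gPt 3) (h3 : g (gPt 3) = gPt 0) :
    ∃ q < 24, 4 ≤ q ∧ ∃ j < 48, Rep (mulN (fldG C4 q) (fldG u5 j)) g := by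
  obtain ⟨q, hq⟩ : ∃ q, q = gIdx (g (gPt 4)) := ⟨_, rfl⟩
  have hq24 : q < 24 := by rw [hq]; exact gIdx_lt _
  have h4 : g (gPt 4) = gPt q := by rw [hq, gPt_gIdx]
  have hne : ∀ i i' : ℕ, i < 4 → i' < 24 → g (gPt i) = gPt i' → q ≠ i' := by
    intro i i' hi hi' e hcon
    rw [hcon, ← e] at h4
    exact gPt_ne (by norm_num : 4 < 24) (by omega : i < 24) (by omega) (g.injective h4)
  have n0 := hne 3 0 (by norm_num) (by norm_num) h3
  have n1 := hne 0 1 (by norm_num) (by norm_num) h0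
  have n2 := hne 1 2 (by norm_num) (by norm_num) h1
  have n3 := hne 2 3 (by norm_num) (by norm_num) h2
  have hc := (allB_iff _ _).mp chk4 q hq24
  rw [nbeq n0, nbeq n1, nbeq n2, nbeq n3] at hc
  simp only [Bool.or_false, Bool.false_or] at hc
  unfold entF at hc
  simp only [Bool.and_eq_true] at hc
  obtain ⟨hCI, hCm, e0, e1, e2, e3, e4, -⟩ := hc
  obtain ⟨j, hj, hrep⟩ := coset5 hCI hCm hg (fun i hi => by
    interval_cases i
    · rw [Nat.eq_of_beq_eq_true e0]; exact h0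
    · rw [Nat.eq_of_beq_eq_true e1]; exact h1
    · rw [Nat.eq_of_beq_eq_true e2]; exact h2
    · rw [Nat.eq_of_beq_eq_true e3]; exact h3
    · rw [Nat.eq_of_beq_eq_true e4]; exact h4)
  exact ⟨q, hq24, by omega, j, hj, hrep⟩

/-- the list `SQ` consists of square roots of `T` in `M24` -/
def memSq (T SQ N : ℕ) : Bool :=
  allB (fun n => strictB (fldG SQ n)
    (fun t => chkInv t (mulN t T) && (chkM24 t && Nat.beq (mulN t t) T))) N

/-- the list `SQ` is increasing -/
def ordSq (SQ N : ℕ) : Bool := allB (fun n => Nat.blt (fldG SQ n) (fldG SQ (Nat.add n 1))) N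

/-- the table of the conjugating elements -/
def tabSq (T AA AAI TP : ℕ) : Bool :=
  allB (fun a => (Nat.beq a 0 || (Nat.beq a (lk T 0) || Nat.beq (lk T a) a)) ||
    (chkInv (fldG AA a) (fldG AAI a) && (chkM24 (fldG AA a) && (Nat.beq (lk (fldG AA a) 0) 0 &&
      (Nat.beq (lk (fldG AA a) 1) a && (Nat.beq (lk (fldG AA a) 2) (lk T 0) &&
        (Nat.beq (lk (fldG AA a) 3) (lk T a) &&
          Nat.beq (fldG TP a) (mulN (fldG AAI a) (mulN T (fldG AA a)))))))))) 24

/-- the normal forms with the right square are conjugates of members of the list -/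
def surjSq (SQ N AA AAI TP : ℕ) : Bool :=
  allB (fun q => Nat.blt q 4 || allB (fun j =>
    strictB (mulN (fldG C4 q) (fldG u5 j)) (fun Zp => strictB (mulN Zp Zp) (fun W =>
      allB (fun a => !(Nat.beq W (fldG TP a)) ||
        strictB (mulN (fldG AA a) (mulN Zp (fldG AAI a)))
          (fun Y => anyB (fun n => Nat.beq Y (fldG SQ n)) N)) 24))) 48) 24

theorem sq_mem {T SQ N : ℕ} {te : Equiv.Perm GolayPt} (hT : Rep T te) (hm : memSq T SQ N = true)
    {n : ℕ} (hn : n < N) : ∃ z : Equiv.Perm GolayPt, z ∈ M24 ∧ z * z = te ∧ Rep (fldG SQ n) z := by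
  unfold memSq at hm
  have h := (allB_iff _ _).mp hm n hn
  rw [strictB_eq] at h
  simp only [Bool.and_eq_true] at h
  obtain ⟨h1, h2, h3⟩ := h
  refine ⟨permOf _ _ h1, permOf_mem_M24 _ _ h1 h2, ?_, rep_permOf _ _ h1⟩
  have hr := rep_mulN (rep_permOf _ _ h1) (rep_permOf _ _ h1)
  rw [Nat.eq_of_beq_eq_true h3] at hr
  exact rep_uniq hr hT

theorem mono_lt (f : ℕ → ℕ) (N : ℕ) (h : ∀ n, n + 1 < N → f n < f (n + 1)) {m n : ℕ}
    (hmn : m < n) (hn : n < N) : f m < f n := by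
  induction n with
  | zero => omega
  | succ n ih =>
    rcases Nat.lt_succ_iff_lt_or_eq.mp hmn with h1 | h1
    · exact lt_trans (ih h1 (by omega)) (h n hn)
    · rw [h1]
      exact h n hn

theorem mono_inj (f : ℕ → ℕ) (N : ℕ) (h : ∀ n, n + 1 < N → f n < f (n + 1)) {m n : ℕ}
    (hm : m < N) (hn : n < N) (e : f m = f n) : m = n := by
  rcases Nat.lt_trichotomy m n with h1 | h1 | h1
  · exact absurd e (ne_of_lt (mono_lt f N h h1 hn))
  · exact h1
  · exact absurd e.symm (ne_of_lt (mono_lt f N h h1 hm))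

theorem sq_inj {SQ N : ℕ} (ho : ordSq SQ (N - 1) = true) {m n : ℕ} (hm : m < N) (hn : n < N)
    (e : fldG SQ m = fldG SQ n) : m = n := by
  apply mono_inj (fun k => fldG SQ k) N ?_ hm hn e
  intro k hk
  unfold ordSq at ho
  exact Nat.blt_eq.mp ((allB_iff _ _).mp ho k (by omega))

theorem inv_apply_of {α : Equiv.Perm GolayPt} {x y : GolayPt} (h : α x = y) : α⁻¹ y = x := by
  rw [← h]
  exact α.symm_apply_apply x

theorem sq_surj {T SQ N AA AAI TP : ℕ} {te : Equiv.Perm GolayPt} (hT : Rep T te)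
    (hte : te * te = 1) (h0 : lk T 0 ≠ 0) (htab : tabSq T AA AAI TP = true)
    (hs : surjSq SQ N AA AAI TP = true) {z : Equiv.Perm GolayPt} (hz : z ∈ M24)
    (hzz : z * z = te) : ∃ n < N, Rep (fldG SQ n) z := by
  obtain ⟨a, ha⟩ : ∃ a, a = gIdx (z (gPt 0)) := ⟨_, rfl⟩
  have ha24 : a < 24 := by rw [ha]; exact gIdx_lt _
  have hza : z (gPt 0) = gPt a := by rw [ha, gPt_gIdx]
  have hte0 : te (gPt 0) = gPt (lk T 0) := rep_apply hT (by norm_num)
  have htea : te (gPt a) = gPt (lk T a) := rep_apply hT ha24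
  have ht24 : ∀ i < 24, lk T i < 24 := fun i hi => Cfsg.Agent.S5614.lk_lt_of_rep hT hi
  have hzz' : ∀ x, z (z x) = te x := fun x => congrArg (fun f : Equiv.Perm GolayPt => f x) hzz
  have htt : ∀ x, te (te x) = x := fun x => congrArg (fun f : Equiv.Perm GolayPt => f x) hte
  have hcomm : ∀ x, z (te x) = te (z x) := fun x => by rw [← hzz' x, ← hzz' (z x)]
  have hp0 : te (gPt 0) ≠ gPt 0 := by
    intro h
    rw [hte0] at h
    have := congrArg gIdx h
    rw [gIdx_gPt (ht24 0 (by norm_num)), gIdx_gPt (by norm_num)] at this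
    exact h0 this
  have ha0 : a ≠ 0 := by
    intro h
    rw [h] at hza
    apply hp0
    rw [← hzz', hza, hza]
  have ha1 : a ≠ lk T 0 := by
    intro h
    have e : z (gPt 0) = z (z (gPt 0)) := by rw [hzz', hte0, hza, h]
    have e2 := z.injective e
    rw [hza] at e2
    have := congrArg gIdx e2
    rw [gIdx_gPt (by norm_num), gIdx_gPt ha24] at this
    exact ha0 this.symm
  have ha2 : lk T a ≠ a := by
    intro h
    apply hp0
    apply z.injective
    rw [hcomm, hza, htea, h]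
  have hent := (allB_iff _ _).mp htab a ha24
  rw [nbeq ha0, nbeq ha1, nbeq ha2] at hent
  simp only [Bool.or_false, Bool.false_or, Bool.and_eq_true] at hent
  obtain ⟨hAI, hAm, e0, e1, e2, e3, eTP⟩ := hent
  obtain ⟨α, hα⟩ : ∃ α : Equiv.Perm GolayPt, α = permOf _ _ hAI := ⟨_, rfl⟩
  have hαr : Rep (fldG AA a) α := by rw [hα]; exact rep_permOf _ _ hAI
  have hαi : Rep (fldG AAI a) α⁻¹ := by rw [hα]; exact rep_permOf_inv _ _ hAI
  have hαm : α ∈ M24 := by rw [hα]; exact permOf_mem_M24 _ _ hAI hAm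
  have b0 : α (gPt 0) = gPt 0 := by
    rw [rep_apply hαr (by norm_num), Nat.eq_of_beq_eq_true e0]
  have b1 : α (gPt 1) = gPt a := by
    rw [rep_apply hαr (by norm_num), Nat.eq_of_beq_eq_true e1]
  have b2 : α (gPt 2) = gPt (lk T 0) := by
    rw [rep_apply hαr (by norm_num), Nat.eq_of_beq_eq_true e2]
  have b3 : α (gPt 3) = gPt (lk T a) := by
    rw [rep_apply hαr (by norm_num), Nat.eq_of_beq_eq_true e3]
  have hz'm : α⁻¹ * z * α ∈ M24 := mul_mem (mul_mem (inv_mem hαm) hz) hαm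
  have c0 : (α⁻¹ * z * α) (gPt 0) = gPt 1 := by
    show α⁻¹ (z (α (gPt 0))) = gPt 1
    rw [b0, hza]
    exact inv_apply_of b1
  have c1 : (α⁻¹ * z * α) (gPt 1) = gPt 2 := by
    show α⁻¹ (z (α (gPt 1))) = gPt 2
    rw [b1, ← hza, hzz', hte0]
    exact inv_apply_of b2
  have c2 : (α⁻¹ * z * α) (gPt 2) = gPt 3 := by
    show α⁻¹ (z (α (gPt 2))) = gPt 3
    rw [b2, ← hte0, hcomm, hza, htea]
    exact inv_apply_of b3
  have c3 : (α⁻¹ * z * α) (gPt 3) = gPt 0 := by
    show α⁻¹ (z (α (gPt 3))) = gPt 0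
    rw [b3, ← htea, ← hza, ← hcomm, hzz', htt]
    exact inv_apply_of b0
  obtain ⟨q, hq24, hq4, j, hj, hrep⟩ := cos4 hz'm c0 c1 c2 c3
  unfold surjSq at hs
  have h1 := (allB_iff _ _).mp hs q hq24
  have hb : Nat.blt q 4 = false := by
    rw [Bool.eq_false_iff, Ne, Nat.blt_eq]
    omega
  rw [hb, Bool.false_or] at h1
  have h2 := (allB_iff _ _).mp h1 j hj
  rw [strictB_eq, strictB_eq] at h2
  have h3 := (allB_iff _ _).mp h2 a ha24
  have hsq : mulN (mulN (fldG C4 q) (fldG u5 j)) (mulN (fldG C4 q) (fldG u5 j)) = fldG TP a := by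
    rw [Nat.eq_of_beq_eq_true eTP]
    apply canon_rep (mulN_lt _ _) (mulN_lt _ _) (rep_mulN hrep hrep)
    have e : α⁻¹ * z * α * (α⁻¹ * z * α) = α⁻¹ * (te * α) := by
      rw [← hzz]
      group
    rw [e]
    exact rep_mulN hαi (rep_mulN hT hαr)
  rw [hsq, Nat.beq_refl, Bool.not_true, Bool.false_or, strictB_eq, anyB_iff] at h3
  obtain ⟨n, hn, hbn⟩ := h3
  refine ⟨n, hn, ?_⟩
  rw [← Nat.eq_of_beq_eq_true hbn]
  have e : z = α * (α⁻¹ * z * α * α⁻¹) := by group
  rw [e]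
  exact rep_mulN hαr (rep_mulN hrep hαi)

/-! ### the two lists -/

theorem sqA_chk : memSq r8 sqA 224 = true ∧ ordSq sqA 223 = true ∧ tabSq r8 aaA aaAI tpA = true ∧
    Nat.beq (lk r8 0) 0 = false ∧ chkInv r8 r8 = true := by decide +kernel

theorem sqA_surj_chk : surjSq sqA 224 aaA aaAI tpA = true := by decide +kernel

theorem sqB_chk : memSq r0 sqB 80 = true ∧ ordSq sqB 79 = true ∧ tabSq r0 aaB aaBI tpB = true ∧
    Nat.beq (lk r0 0) 0 = false ∧ chkInv r0 r0 = true := by decide +kernel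

theorem sqB_surj_chk : surjSq sqB 80 aaB aaBI tpB = true := by decide +kernel

theorem sq_of_chk {T : ℕ} {te : Equiv.Perm GolayPt} (hT : Rep T te) (h : chkInv T T = true) :
    te * te = 1 := by
  have e : te = permOf T T h := rep_uniq hT (rep_permOf T T h)
  have e2 : (permOf T T h)⁻¹ = permOf T T h := rep_uniq (rep_permOf_inv T T h) (rep_permOf T T h)
  rw [e]
  calc permOf T T h * permOf T T h = (permOf T T h)⁻¹ * permOf T T h := by rw [e2]
    _ = 1 := inv_mul_cancel _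

theorem r8e_sq : r8e * r8e = 1 := sq_of_chk r8e_rep sqA_chk.2.2.2.2

theorem r0e_sq : r0e * r0e = 1 := sq_of_chk r0e_rep sqB_chk.2.2.2.2

theorem enumA_mem {n : ℕ} (hn : n < 224) :
    ∃ z : Equiv.Perm GolayPt, z ∈ M24 ∧ z * z = r8e ∧ Rep (fldG sqA n) z :=
  sq_mem r8e_rep sqA_chk.1 hn

theorem enumA_inj {m n : ℕ} (hm : m < 224) (hn : n < 224) (e : fldG sqA m = fldG sqA n) : m = n :=
  sq_inj (N := 224) sqA_chk.2.1 hm hn e

theorem enumA_surj {z : Equiv.Perm GolayPt} (hz : z ∈ M24) (hzz : z * z = r8e) :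
    ∃ n < 224, Rep (fldG sqA n) z :=
  sq_surj r8e_rep r8e_sq (fun h => by
    have := sqA_chk.2.2.2.1
    rw [h] at this
    exact absurd this (by decide)) sqA_chk.2.2.1 sqA_surj_chk hz hzz

theorem enumB_mem {n : ℕ} (hn : n < 80) :
    ∃ z : Equiv.Perm GolayPt, z ∈ M24 ∧ z * z = r0e ∧ Rep (fldG sqB n) z :=
  sq_mem r0e_rep sqB_chk.1 hn

theorem enumB_inj {m n : ℕ} (hm : m < 80) (hn : n < 80) (e : fldG sqB m = fldG sqB n) : m = n :=
  sq_inj (N := 80) sqB_chk.2.1 hm hn e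

theorem enumB_surj {z : Equiv.Perm GolayPt} (hz : z ∈ M24) (hzz : z * z = r0e) :
    ∃ n < 80, Rep (fldG sqB n) z :=
  sq_surj r0e_rep r0e_sq (fun h => by
    have := sqB_chk.2.2.2.1
    rw [h] at this
    exact absurd this (by decide)) sqB_chk.2.2.1 sqB_surj_chk hz hzz

end Cfsg.Agent.H33.Blk
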