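import Cfsg.Agent.H20.CentralChar

/-!
# One block from the Frobenius map on the real class algebra mod 2 (helper33)

`ClsData`: a function `cd` on a finite group, invariant under conjugation and inversion, whose
fibres are the sets `K ∪ K⁻¹` for the conjugacy classes `K` of representatives `rho j`.
If the parities `S i j` of the structure constants of the squares of the sums `Zc` of the fibres
are triangular in a suitable sense, all central characters agree modulo a 2-modular maximal ideal
(`sameBlock_main`).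
-/

set_option autoImplicit false

namespace Cfsg.Agent.H33.Blk

open Cfsg Cfsg.Agent.H4 Cfsg.Agent.H20

universe u

variable {G : Type u} [Group G] [Fintype G] [DecidableEq G]

/-- class data -/
structure ClsData (G : Type u) [Group G] (n : ℕ) where
  cd : G → ℕ
  rho : Fin n → G
  cd_conj : ∀ g h : G, cd (h * g * h⁻¹) = cd g
  cd_inv : ∀ g : G, cd g⁻¹ = cd g
  cl : ∀ g : G, ∃ j : Fin n, ∃ h : G, h * g * h⁻¹ = rho j ∨ h * g * h⁻¹ = (rho j)⁻¹
  inj : ∀ i j : Fin n, cd (rho i) = cd (rho j) → i = j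

/-- the sum of the elements with a given value of `cd` -/
noncomputable def Zc (cd : G → ℕ) (c : ℕ) : MonoidAlgebra ℂ G :=
  ∑ x ∈ Finset.univ.filter (fun x => cd x = c), MonoidAlgebra.single x 1

theorem coeff_Zc (cd : G → ℕ) (c : ℕ) (x : G) :
    (Zc cd c).coeff x = if cd x = c then 1 else 0 := by
  unfold Zc
  rw [MonoidAlgebra.coeff_sum, Finsupp.finsetSum_apply]
  simp only [MonoidAlgebra.coeff_single, Finsupp.single_apply]
  rw [Finset.sum_ite_eq']
  simp

/-- invariance under inversion -/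
def IsInvI (z : MonoidAlgebra ℂ G) : Prop := ∀ g : G, z.coeff g⁻¹ = z.coeff g

variable {n : ℕ} (D : ClsData G n)

theorem Zc_mem (S : Subring ℂ) (c : ℕ) : Zc D.cd c ∈ cfSubring G S := by
  refine ⟨fun x h => ?_, fun x => ?_⟩
  · rw [coeff_Zc, coeff_Zc, D.cd_conj]
  · rw [coeff_Zc]
    split_ifs
    · exact S.one_mem
    · exact S.zero_mem

theorem Zc_invI (c : ℕ) : IsInvI (Zc D.cd c) := by
  intro g
  rw [coeff_Zc, coeff_Zc, D.cd_inv]

theorem isInvI_mul {z w : MonoidAlgebra ℂ G} (hw : IsCF w) (hz' : IsInvI z)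
    (hw' : IsInvI w) : IsInvI (z * w) := by
  intro g
  rw [coeff_mul_fintype, coeff_mul_fintype, ← Equiv.sum_comp (Equiv.inv G)]
  apply Finset.sum_congr rfl
  intro x _
  simp only [Equiv.inv_apply, inv_inv]
  rw [hz']
  congr 1
  have e1 : x * g⁻¹ = (g * x⁻¹)⁻¹ := by group
  have e2 : x⁻¹ * g = x⁻¹ * (g * x⁻¹) * x⁻¹⁻¹ := by group
  rw [e1, hw', e2, hw]

theorem coeff_rep {z : MonoidAlgebra ℂ G} (hz : IsCF z) (hi : IsInvI z) (g : G) :
    ∃ j, D.cd g = D.cd (D.rho j) ∧ z.coeff g = z.coeff (D.rho j) := by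
  obtain ⟨j, h, e | e⟩ := D.cl g
  · refine ⟨j, ?_, ?_⟩
    · rw [← e, D.cd_conj]
    · rw [← e, hz]
  · refine ⟨j, ?_, ?_⟩
    · rw [← D.cd_inv (D.rho j), ← e, D.cd_conj]
    · rw [← hi (D.rho j), ← e, hz]

theorem decomp {z : MonoidAlgebra ℂ G} (hz : IsCF z) (hi : IsInvI z) :
    z = ∑ j, z.coeff (D.rho j) • Zc D.cd (D.cd (D.rho j)) := by
  apply MonoidAlgebra.ext
  apply Finsupp.ext
  intro x
  rw [MonoidAlgebra.coeff_sum, Finsupp.finsetSum_apply]
  obtain ⟨j, h1, h2⟩ := coeff_rep D hz hi x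
  rw [Finset.sum_eq_single j]
  · rw [MonoidAlgebra.coeff_smul, Finsupp.smul_apply, coeff_Zc, if_pos h1, smul_eq_mul, mul_one, h2]
  · intro i _ hij
    rw [MonoidAlgebra.coeff_smul, Finsupp.smul_apply, coeff_Zc, if_neg, smul_zero]
    intro h
    exact hij (D.inj _ _ (by rw [← h, h1]))
  · intro h; exact absurd (Finset.mem_univ _) h

theorem omega_decomp (χ : G → ℂ) {z : MonoidAlgebra ℂ G} (hz : IsCF z) (hi : IsInvI z) :
    omega χ z = ∑ j, z.coeff (D.rho j) * omega χ (Zc D.cd (D.cd (D.rho j))) := by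
  conv_lhs => rw [decomp D hz hi]
  rw [omega_sum]
  apply Finset.sum_congr rfl
  intro j _
  rw [omega_smul]

theorem coeff_Zc_sq (c : ℕ) (g : G) : (Zc D.cd c * Zc D.cd c).coeff g
    = ((Finset.univ.filter fun x : G => D.cd x = c ∧ D.cd (x⁻¹ * g) = c).card : ℂ) := by
  rw [coeff_mul_fintype, Finset.card_filter, Nat.cast_sum]
  apply Finset.sum_congr rfl
  intro x _
  rw [coeff_Zc, coeff_Zc]
  by_cases h1 : D.cd x = c <;> by_cases h2 : D.cd (x⁻¹ * g) = c <;> simp [h1, h2]

/-! ### the local ring -/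

variable {M : Ideal AlgInt}

theorem two_mem (hM : IsPModular 2 M) : MemLocalIdeal M (2 : ℂ) := by
  have := memLocalIdeal_natCast_self hM
  simpa using this

theorem even_mem (hM : IsPModular 2 M) {a b : ℕ} (h : a % 2 = b % 2) :
    MemLocalIdeal M ((a : ℂ) - (b : ℂ)) := by
  have hMp := isPrime_of_isPModular hM
  have e : ((a : ℂ) - (b : ℂ)) = 2 * (((a / 2 : ℕ) : ℂ) - ((b / 2 : ℕ) : ℂ)) := by
    have ha : a = 2 * (a / 2) + a % 2 := (Nat.div_add_mod a 2).symm
    have hb : b = 2 * (b / 2) + b % 2 := (Nat.div_add_mod b 2).symm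
    have ha' : (a : ℂ) = 2 * ((a / 2 : ℕ) : ℂ) + ((a % 2 : ℕ) : ℂ) := by
      conv_lhs => rw [ha]
      push_cast; ring
    have hb' : (b : ℂ) = 2 * ((b / 2 : ℕ) : ℂ) + ((b % 2 : ℕ) : ℂ) := by
      conv_lhs => rw [hb]
      push_cast; ring
    rw [ha', hb', h]; ring
  rw [e]
  exact memLocalIdeal_mul_right hMp (two_mem hM)
    (memLocalRing_sub hMp (memLocalRing_natCast hMp _) (memLocalRing_natCast hMp _))

theorem sq_cancel (hM : IsPModular 2 M) {x y : ℂ} (hx : MemLocalRing M x) (hy : MemLocalRing M y)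
    (h : MemLocalIdeal M (x ^ 2 - y ^ 2)) : MemLocalIdeal M (x - y) := by
  have hMp := isPrime_of_isPModular hM
  apply memLocalIdeal_of_pow hMp (memLocalRing_sub hMp hx hy) 2
  have e : (x - y) ^ 2 = (x ^ 2 - y ^ 2) + 2 * (y * (y - x)) := by ring
  rw [e]
  exact memLocalIdeal_add hMp h (memLocalIdeal_mul_right hMp (two_mem hM)
    (memLocalRing_mul hMp hy (memLocalRing_sub hMp hy hx)))

/-- the value `0` or `1` of a Boolean -/
def bv (b : Bool) : ℂ := if b = true then 1 else 0

theorem bv_mem (hMp : M.IsPrime) (b : Bool) : MemLocalRing M (bv b) := by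
  unfold bv
  split_ifs
  · exact memLocalRing_one hMp
  · exact memLocalRing_zero hMp

theorem bv_sq (b : Bool) : bv b ^ 2 = bv b := by
  unfold bv
  split_ifs <;> simp

/-- the central character value on `Zc` -/
noncomputable def Wv {m : ℕ} (D : ClsData G m) (χ : G → ℂ) (i : Fin m) : ℂ :=
  omega χ (Zc D.cd (D.cd (D.rho i)))

theorem Wv_mem (hMp : M.IsPrime) (χ : IrrCharacter G) (i : Fin n) :
    MemLocalRing M (Wv D (χ : G → ℂ) i) :=
  omega_memLocalRing hMp χ (Zc_mem D (localRing M hMp) _)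

theorem Wv_sq (χ : IrrCharacter G) (i : Fin n) : Wv D (χ : G → ℂ) i ^ 2
    = ∑ j, ((Finset.univ.filter fun x : G => D.cd x = D.cd (D.rho i)
        ∧ D.cd (x⁻¹ * D.rho j) = D.cd (D.rho i)).card : ℂ) * Wv D (χ : G → ℂ) j := by
  have hcf := (Zc_mem D ⊤ (D.cd (D.rho i))).1
  have hin := Zc_invI D (D.cd (D.rho i))
  rw [pow_two]
  unfold Wv
  rw [← omega_mul χ hcf, omega_decomp D (χ : G → ℂ) (isCF_mul hcf hcf) (isInvI_mul hcf hin hin)]
  apply Finset.sum_congr rfl
  intro j _
  rw [coeff_Zc_sq]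

section Main

variable {m : ℕ} (E : ClsData G (m + 1))

theorem Wv_zero (h1 : E.rho 0 = 1) (h0 : ∀ x : G, E.cd x = E.cd (E.rho 0) → x = 1)
    (χ : IrrCharacter G) : Wv E (χ : G → ℂ) 0 = 1 := by
  unfold Wv
  have e : Zc E.cd (E.cd (E.rho 0)) = 1 := by
    apply MonoidAlgebra.ext
    apply Finsupp.ext
    intro x
    rw [coeff_Zc, MonoidAlgebra.one_def, MonoidAlgebra.coeff_single, Finsupp.single_apply]
    by_cases hx : x = 1
    · rw [if_pos (by rw [hx, h1]), if_pos hx.symm]
    · rw [if_neg (fun h => hx (h0 x h)), if_neg (fun h => hx h.symm)]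
  rw [e]
  exact omega_one_irr χ

theorem Wv_cong (hM : IsPModular 2 M) (h1 : E.rho 0 = 1)
    (h0 : ∀ x : G, E.cd x = E.cd (E.rho 0) → x = 1)
    (S : Fin (m + 1) → Fin (m + 1) → Bool)
    (hS : ∀ i j, (Finset.univ.filter fun x : G => E.cd x = E.cd (E.rho i)
      ∧ E.cd (x⁻¹ * E.rho j) = E.cd (E.rho i)).card % 2 = if S i j = true then 1 else 0)
    (eps : Fin (m + 1) → Bool) (rk : Fin (m + 1) → ℕ)
    (hrk : ∀ i j, S i j = true → j = 0 ∨ rk j < rk i)
    (heps : ∀ i, (∑ j, if (S i j && eps j) = true then 1 else 0) % 2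
      = if eps i = true then 1 else 0)
    (heps0 : eps 0 = true) (χ : IrrCharacter G) :
    ∀ r : ℕ, ∀ i, rk i < r → MemLocalIdeal M (Wv E (χ : G → ℂ) i - bv (eps i)) := by
  have hMp := isPrime_of_isPModular hM
  intro r
  induction r with
  | zero => intro i hi; exact absurd hi (Nat.not_lt_zero _)
  | succ r ih =>
    intro i hi
    apply sq_cancel hM (Wv_mem E hMp χ i) (bv_mem hMp _)
    rw [bv_sq, Wv_sq]
    have hsplit : (∑ j, ((Finset.univ.filter fun x : G => E.cd x = E.cd (E.rho i)
        ∧ E.cd (x⁻¹ * E.rho j) = E.cd (E.rho i)).card : ℂ) * Wv E (χ : G → ℂ) j) - bv (eps i)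
        = (∑ j, (((Finset.univ.filter fun x : G => E.cd x = E.cd (E.rho i)
            ∧ E.cd (x⁻¹ * E.rho j) = E.cd (E.rho i)).card : ℂ)
            - (((if S i j = true then 1 else 0 : ℕ)) : ℂ)) * Wv E (χ : G → ℂ) j)
          + (∑ j, (((if S i j = true then 1 else 0 : ℕ)) : ℂ)
              * (Wv E (χ : G → ℂ) j - bv (eps j)))
          + ((((∑ j, if (S i j && eps j) = true then 1 else 0 : ℕ)) : ℂ)
              - (((if eps i = true then 1 else 0 : ℕ)) : ℂ)) := by
      have e3 : (((∑ j, if (S i j && eps j) = true then 1 else 0 : ℕ)) : ℂ)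
          = ∑ j, (((if S i j = true then 1 else 0 : ℕ)) : ℂ) * bv (eps j) := by
        rw [Nat.cast_sum]
        apply Finset.sum_congr rfl
        intro j _
        unfold bv
        cases S i j <;> cases eps j <;> simp
      have e4 : (((if eps i = true then 1 else 0 : ℕ)) : ℂ) = bv (eps i) := by
        unfold bv
        cases eps i <;> simp
      rw [e3, e4]
      simp only [sub_mul, mul_sub, Finset.sum_sub_distrib]
      ring
    rw [hsplit]
    refine memLocalIdeal_add hMp (memLocalIdeal_add hMp ?_ ?_) ?_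
    · apply memLocalIdeal_sum hMp
      intro j _
      exact memLocalIdeal_mul_right hMp (even_mem hM (by rw [hS i j]; split_ifs <;> rfl))
        (Wv_mem E hMp χ j)
    · apply memLocalIdeal_sum hMp
      intro j _
      by_cases hs : S i j = true
      · rw [if_pos hs]
        apply memLocalIdeal_mul_left hMp (memLocalRing_natCast hMp _)
        rcases hrk i j hs with rfl | hlt
        · rw [Wv_zero E h1 h0 χ, heps0]
          unfold bv
          simp only [if_true, sub_self]
          exact memLocalIdeal_zero hMp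
        · exact ih j (by omega)
      · rw [if_neg hs]
        simp only [Nat.cast_zero, zero_mul]
        exact memLocalIdeal_zero hMp
    · exact even_mem hM (by rw [heps i]; split_ifs <;> rfl)

theorem classSum_inv_coeff (g x : G) : (classSum g⁻¹).coeff x = (classSum g).coeff x⁻¹ := by
  classical
  rw [coeff_classSum, coeff_classSum]
  have : IsConj g⁻¹ x ↔ IsConj g x⁻¹ := by
    rw [isConj_iff, isConj_iff]
    constructor
    · rintro ⟨c, hc⟩
      exact ⟨c, by rw [← hc]; group⟩
    · rintro ⟨c, hc⟩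
      refine ⟨c, ?_⟩
      have : c * g⁻¹ * c⁻¹ = (c * g * c⁻¹)⁻¹ := by group
      rw [this, hc, inv_inv]
  by_cases h : IsConj g x⁻¹
  · rw [if_pos h, if_pos (this.mpr h)]
  · rw [if_neg h, if_neg (fun h' => h (this.mp h'))]

/-- all irreducible characters lie in one block -/
theorem sameBlock_main (hM : IsPModular 2 M) (h1 : E.rho 0 = 1)
    (h0 : ∀ x : G, E.cd x = E.cd (E.rho 0) → x = 1)
    (S : Fin (m + 1) → Fin (m + 1) → Bool)
    (hS : ∀ i j, (Finset.univ.filter fun x : G => E.cd x = E.cd (E.rho i)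
      ∧ E.cd (x⁻¹ * E.rho j) = E.cd (E.rho i)).card % 2 = if S i j = true then 1 else 0)
    (eps : Fin (m + 1) → Bool) (rk : Fin (m + 1) → ℕ)
    (hrk : ∀ i j, S i j = true → j = 0 ∨ rk j < rk i)
    (heps : ∀ i, (∑ j, if (S i j && eps j) = true then 1 else 0) % 2
      = if eps i = true then 1 else 0)
    (heps0 : eps 0 = true) (hreal : ∀ j, eps j = true → (E.rho j)⁻¹ = E.rho j)
    (χ ψ : IrrCharacter G) : SameBlock M (χ : G → ℂ) (ψ : G → ℂ) := by
  have hMp := isPrime_of_isPModular hM
  have hW : ∀ (φ : IrrCharacter G) (i : Fin (m + 1)),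
      MemLocalIdeal M (Wv E (φ : G → ℂ) i - bv (eps i)) := fun φ i =>
    Wv_cong E hM h1 h0 S hS eps rk hrk heps heps0 φ (rk i + 1) i (Nat.lt_succ_self _)
  -- values of inversion-invariant central elements
  have hval : ∀ (φ : IrrCharacter G) {z : MonoidAlgebra ℂ G}, z ∈ cfSubring G (localRing M hMp) →
      IsInvI z → MemLocalIdeal M (omega (φ : G → ℂ) z - ∑ j, z.coeff (E.rho j) * bv (eps j)) := by
    intro φ z hz hi
    rw [omega_decomp E (φ : G → ℂ) hz.1 hi, ← Finset.sum_sub_distrib]
    apply memLocalIdeal_sum hMp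
    intro j _
    rw [← mul_sub]
    exact memLocalIdeal_mul_left hMp (hz.2 _) (hW φ j)
  intro g
  have hK := classSum_mem (localRing M hMp) g
  have hK' := classSum_mem (localRing M hMp) g⁻¹
  have hz1 : classSum g + classSum g⁻¹ ∈ cfSubring G (localRing M hMp) :=
    (cfSubring G _).add_mem hK hK'
  have hz2 : classSum g * classSum g⁻¹ ∈ cfSubring G (localRing M hMp) :=
    (cfSubring G _).mul_mem hK hK'
  have hi1 : IsInvI (classSum g + classSum g⁻¹) := by
    intro x
    rw [MonoidAlgebra.coeff_add, Finsupp.add_apply, Finsupp.add_apply, classSum_inv_coeff,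
      classSum_inv_coeff, inv_inv, add_comm]
  have hi2 : IsInvI (classSum g * classSum g⁻¹) := by
    intro y
    rw [coeff_mul_fintype, coeff_mul_fintype]
    conv_rhs => rw [← Equiv.sum_comp (Equiv.mulLeft y)]
    apply Finset.sum_congr rfl
    intro x _
    simp only [Equiv.coe_mulLeft]
    rw [classSum_inv_coeff, classSum_inv_coeff]
    have e1 : (x⁻¹ * y⁻¹)⁻¹ = y * x := by group
    have e2 : ((y * x)⁻¹ * y)⁻¹ = x := by group
    rw [e1, e2, mul_comm]
  -- the sum of the two values lies in the ideal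
  have hsum : ∀ φ : IrrCharacter G,
      MemLocalIdeal M (omega (φ : G → ℂ) (classSum g) + omega (φ : G → ℂ) (classSum g⁻¹)) := by
    intro φ
    have h := hval φ hz1 hi1
    rw [omega_add] at h
    have h2 : MemLocalIdeal M
        (∑ j, (classSum g + classSum g⁻¹).coeff (E.rho j) * bv (eps j)) := by
      apply memLocalIdeal_sum hMp
      intro j _
      by_cases hj : eps j = true
      · rw [MonoidAlgebra.coeff_add, Finsupp.add_apply, classSum_inv_coeff, hreal j hj, hj]
        have e : ((classSum g).coeff (E.rho j) + (classSum g).coeff (E.rho j)) * bv true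
            = 2 * (classSum g).coeff (E.rho j) := by
          unfold bv; simp; ring
        rw [e]
        exact memLocalIdeal_mul_right hMp (two_mem hM) (hK.2 _)
      · have : eps j = false := by simpa using hj
        rw [this]
        unfold bv
        simp only [Bool.false_eq_true, if_false, mul_zero]
        exact memLocalIdeal_zero hMp
    have := memLocalIdeal_add hMp h h2
    simpa using this
  have hprod : MemLocalIdeal M
      (omega (χ : G → ℂ) (classSum g) * omega (χ : G → ℂ) (classSum g⁻¹)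
        - omega (ψ : G → ℂ) (classSum g) * omega (ψ : G → ℂ) (classSum g⁻¹)) := by
    have ha := hval χ hz2 hi2
    have hb := hval ψ hz2 hi2
    rw [omega_mul χ hK.1] at ha
    rw [omega_mul ψ hK.1] at hb
    have := memLocalIdeal_sub hMp ha hb
    simpa using this
  have hxχ : MemLocalRing M (omega (χ : G → ℂ) (classSum g)) := omega_memLocalRing hMp χ hK
  have hxψ : MemLocalRing M (omega (ψ : G → ℂ) (classSum g)) := omega_memLocalRing hMp ψ hK
  have hfin : MemLocalIdeal M
      (omega (χ : G → ℂ) (classSum g) - omega (ψ : G → ℂ) (classSum g)) := by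
    apply sq_cancel hM hxχ hxψ
    have e : omega (χ : G → ℂ) (classSum g) ^ 2 - omega (ψ : G → ℂ) (classSum g) ^ 2
        = omega (χ : G → ℂ) (classSum g)
            * (omega (χ : G → ℂ) (classSum g) + omega (χ : G → ℂ) (classSum g⁻¹))
          - omega (ψ : G → ℂ) (classSum g)
            * (omega (ψ : G → ℂ) (classSum g) + omega (ψ : G → ℂ) (classSum g⁻¹))
          - (omega (χ : G → ℂ) (classSum g) * omega (χ : G → ℂ) (classSum g⁻¹)
            - omega (ψ : G → ℂ) (classSum g) * omega (ψ : G → ℂ) (classSum g⁻¹)) := by ring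
    rw [e]
    exact memLocalIdeal_sub hMp (memLocalIdeal_sub hMp
      (memLocalIdeal_mul_left hMp hxχ (hsum χ)) (memLocalIdeal_mul_left hMp hxψ (hsum ψ))) hprod
  rw [omega_classSum _ (irr_isClassFunction χ), omega_classSum _ (irr_isClassFunction ψ)] at hfin
  exact hfin

end Main

end Cfsg.Agent.H33.Blk
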