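import Cfsg.Agent.H94.ConjEnum
import Cfsg.Agent.H94.EltCard

/-!
# A class invariant of permutations of the 24 points and its packed form (helper33)

`cdP g` is computed from the numbers of fixed points of `g`, `g²`, `g³` (and of `g⁴`, `g⁶` if these
all vanish); it is invariant under conjugation and inversion. `cdN` is its packed form.
Also: parity masks (`par`), canonical packed permutations (`canon`), and counting the elements
satisfying a predicate through an enumeration (`card_filter_enum`).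
-/

set_option autoImplicit false

namespace Cfsg.Agent.H33.Blk

open Cfsg Cfsg.Agent.H9 Cfsg.Agent.H33 Cfsg.Agent.H94

/-- number of fixed points -/
def fx (g : Equiv.Perm GolayPt) : ℕ := (Finset.univ.filter fun p => g p = p).card

theorem fx_conj (k g : Equiv.Perm GolayPt) : fx (k * g * k⁻¹) = fx g := fix_card_conj' k g

theorem fx_inv (g : Equiv.Perm GolayPt) : fx g⁻¹ = fx g := by
  unfold fx
  congr 1
  ext p
  simp only [Finset.mem_filter, Finset.mem_univ, true_and]
  constructor
  · intro h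
    have := congrArg g h
    simpa using this.symm
  · intro h
    have := congrArg (g⁻¹ : Equiv.Perm GolayPt) h
    simpa using this.symm

theorem fx_rep {P : ℕ} {g : Equiv.Perm GolayPt} (h : Rep P g) : fx g = fixN P := fix_card h

/-- selection -/
def sel (s slow : ℕ) : ℕ :=
  match s with
  | 0 => slow
  | n + 1 => n + 1

/-- the first part of the invariant -/
def cd3 (g : Equiv.Perm GolayPt) : ℕ := 1 * fx g + (32 * fx (g * g) + 1024 * fx (g * (g * g)))

/-- the second part of the invariant -/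
def cdS (g : Equiv.Perm GolayPt) : ℕ :=
  32768 + (1 * fx ((g * g) * (g * g)) + 32 * fx ((g * g) * ((g * g) * (g * g))))

/-- the invariant -/
def cdP (g : Equiv.Perm GolayPt) : ℕ := sel (cd3 g) (cdS g)

theorem cdP_conj (g k : Equiv.Perm GolayPt) : cdP (k * g * k⁻¹) = cdP g := by
  have e1 : k * g * k⁻¹ * (k * g * k⁻¹) = k * (g * g) * k⁻¹ := by group
  have e2 : k * g * k⁻¹ * (k * (g * g) * k⁻¹) = k * (g * (g * g)) * k⁻¹ := by group
  have e3 : k * (g * g) * k⁻¹ * (k * (g * g) * k⁻¹) = k * ((g * g) * (g * g)) * k⁻¹ := by group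
  have e4 : k * (g * g) * k⁻¹ * (k * ((g * g) * (g * g)) * k⁻¹)
      = k * ((g * g) * ((g * g) * (g * g))) * k⁻¹ := by group
  unfold cdP cd3 cdS
  rw [e1, e2, e3, e4, fx_conj, fx_conj, fx_conj, fx_conj, fx_conj]

theorem cdP_inv (g : Equiv.Perm GolayPt) : cdP g⁻¹ = cdP g := by
  have e1 : g⁻¹ * g⁻¹ = (g * g)⁻¹ := by group
  have e2 : g⁻¹ * (g * g)⁻¹ = (g * (g * g))⁻¹ := by group
  have e3 : (g * g)⁻¹ * (g * g)⁻¹ = ((g * g) * (g * g))⁻¹ := by group
  have e4 : (g * g)⁻¹ * ((g * g) * (g * g))⁻¹ = ((g * g) * ((g * g) * (g * g)))⁻¹ := by group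
  unfold cdP cd3 cdS
  rw [e1, e2, e3, e4, fx_inv, fx_inv, fx_inv, fx_inv, fx_inv]

/-! ### packed form -/

theorem sumB3 (f g h : ℕ → Bool) (a b c n : ℕ) :
    sumB (fun i => Nat.add (cond (f i) a 0) (Nat.add (cond (g i) b 0) (cond (h i) c 0))) n
      = a * countB f n + (b * countB g n + c * countB h n) := by
  induction n with
  | zero => simp [sumB, countB]
  | succ n ih =>
    have h1 : sumB (fun i => Nat.add (cond (f i) a 0) (Nat.add (cond (g i) b 0) (cond (h i) c 0)))
        (n + 1) = Nat.add (Nat.add (cond (f n) a 0) (Nat.add (cond (g n) b 0) (cond (h n) c 0)))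
          (sumB (fun i => Nat.add (cond (f i) a 0) (Nat.add (cond (g i) b 0) (cond (h i) c 0))) n) :=
      rfl
    have h2 : ∀ u : ℕ → Bool, countB u (n + 1) = Nat.add (cond (u n) 1 0) (countB u n) :=
      fun _ => rfl
    rw [h1, ih, h2, h2, h2]
    simp only [Nat.add_eq]
    cases f n <;> cases g n <;> cases h n <;> simp only [cond_true, cond_false] <;> ring

theorem countB_congr {f g : ℕ → Bool} {n : ℕ} (h : ∀ i < n, f i = g i) :
    countB f n = countB g n := by
  induction n with
  | zero => rfl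
  | succ n ih =>
    have h1 : ∀ u : ℕ → Bool, countB u (n + 1) = Nat.add (cond (u n) 1 0) (countB u n) :=
      fun _ => rfl
    rw [h1, h1, h n (Nat.lt_succ_self n), ih (fun i hi => h i (Nat.lt_succ_of_lt hi))]

/-- fixed points of `P`, `P²`, `P³` in one pass -/
def cd3N (P : ℕ) : ℕ :=
  sumB (fun i => Nat.add (cond (Nat.beq (lk P i) i) 1 0)
    (Nat.add (cond (Nat.beq (lk P (lk P i)) i) 32 0)
      (cond (Nat.beq (lk P (lk P (lk P i))) i) 1024 0))) 24

/-- the packed form of `cdS`, applied to the packed square -/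
def cdSN (Q : ℕ) : ℕ :=
  Nat.add 32768 (sumB (fun i => Nat.add (cond false 0 0)
    (Nat.add (cond (Nat.beq (lk Q (lk Q i)) i) 1 0)
      (cond (Nat.beq (lk Q (lk Q (lk Q i))) i) 32 0))) 24)

/-- the packed form of the invariant -/
def cdN (P : ℕ) : ℕ := sel (cd3N P) (cdSN (mulN P P))

theorem fix2 {P : ℕ} {g : Equiv.Perm GolayPt} (h : Rep P g) :
    countB (fun i => Nat.beq (lk P (lk P i)) i) 24 = fx (g * g) := by
  rw [fx_rep (rep_mulN h h)]
  unfold fixN
  apply countB_congr
  intro i hi
  rw [lk_mulN P P hi]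

theorem fix3 {P : ℕ} {g : Equiv.Perm GolayPt} (h : Rep P g) :
    countB (fun i => Nat.beq (lk P (lk P (lk P i))) i) 24 = fx (g * (g * g)) := by
  rw [fx_rep (rep_mulN h (rep_mulN h h))]
  unfold fixN
  apply countB_congr
  intro i hi
  rw [lk_mulN P (mulN P P) hi, lk_mulN P P hi]

theorem cd3N_eq {P : ℕ} {g : Equiv.Perm GolayPt} (h : Rep P g) : cd3N P = cd3 g := by
  unfold cd3N cd3
  rw [sumB3, fix2 h, fix3 h, fx_rep h]
  rfl

theorem cdSN_eq {P : ℕ} {g : Equiv.Perm GolayPt} (h : Rep P g) : cdSN (mulN P P) = cdS g := by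
  have hq := rep_mulN h h
  unfold cdSN cdS
  rw [sumB3, fix2 hq, fix3 hq]
  simp only [Nat.add_eq, zero_mul, zero_add]

theorem cdN_eq {P : ℕ} {g : Equiv.Perm GolayPt} (h : Rep P g) : cdN P = cdP g := by
  unfold cdN cdP
  rw [cd3N_eq h, cdSN_eq h]

/-! ### parity masks -/

/-- the mask of the values taken an odd number of times -/
def par (f : ℕ → ℕ) : ℕ → ℕ
  | 0 => 0
  | n + 1 => Nat.xor (Nat.shiftLeft 1 (f n)) (par f n)

theorem testBit_par (f : ℕ → ℕ) (n k : ℕ) :
    (par f n).testBit k = decide (countB (fun i => Nat.beq (f i) k) n % 2 = 1) := by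
  induction n with
  | zero => simp [par, countB]
  | succ n ih =>
    have h1 : par f (n + 1) = (1 <<< f n) ^^^ par f n := rfl
    have h2 : countB (fun i => Nat.beq (f i) k) (n + 1)
        = (cond (Nat.beq (f n) k) 1 0) + countB (fun i => Nat.beq (f i) k) n := rfl
    rw [h1, h2, Nat.testBit_xor, ih, Nat.one_shiftLeft, Nat.testBit_two_pow]
    by_cases hk : f n = k
    · have hb : Nat.beq (f n) k = true := by rw [hk]; exact Nat.beq_refl _
      rw [hb]
      simp only [hk, decide_true, cond_true, Bool.true_xor]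
      rcases Nat.mod_two_eq_zero_or_one (countB (fun i => Nat.beq (f i) k) n) with h | h
      · have h' : (1 + countB (fun i => Nat.beq (f i) k) n) % 2 = 1 := by omega
        simp [h, h']
      · have h' : (1 + countB (fun i => Nat.beq (f i) k) n) % 2 = 0 := by omega
        simp [h, h']
    · have hb : Nat.beq (f n) k = false := by
        cases hc : Nat.beq (f n) k
        · rfl
        · exact absurd (Nat.eq_of_beq_eq_true hc) hk
      rw [hb]
      simp [hk]

theorem par_add (f : ℕ → ℕ) (m b : ℕ) :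
    par f (m + b) = Nat.xor (par (fun n => f (m + n)) b) (par f m) := by
  induction b with
  | zero =>
    show par f m = 0 ^^^ par f m
    rw [Nat.zero_xor]
  | succ b ih =>
    have h1 : par f (m + (b + 1)) = (1 <<< f (m + b)) ^^^ par f (m + b) := rfl
    have h2 : par (fun n => f (m + n)) (b + 1)
        = (1 <<< f (m + b)) ^^^ par (fun n => f (m + n)) b := rfl
    rw [h1, h2, ih]
    show (1 <<< f (m + b)) ^^^ (par (fun n => f (m + n)) b ^^^ par f m)
      = ((1 <<< f (m + b)) ^^^ par (fun n => f (m + n)) b) ^^^ par f m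
    rw [Nat.xor_assoc]

/-- xor of the values `g d`, `d < a` -/
def parX (g : ℕ → ℕ) : ℕ → ℕ
  | 0 => 0
  | a + 1 => Nat.xor (g a) (parX g a)

theorem par_mul (f : ℕ → ℕ) (a b : ℕ) :
    par f (a * b) = parX (fun d => par (fun n => f (d * b + n)) b) a := by
  induction a with
  | zero => simp [par, parX]
  | succ a ih =>
    have h1 : parX (fun d => par (fun n => f (d * b + n)) b) (a + 1)
        = Nat.xor (par (fun n => f (a * b + n)) b)
          (parX (fun d => par (fun n => f (d * b + n)) b) a) := rfl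
    rw [Nat.succ_mul, par_add, ih, h1]

/-! ### canonical packed permutations -/

theorem canon {P Q : ℕ} (hP : P < 2 ^ 120) (hQ : Q < 2 ^ 120) (h : ∀ i < 24, lk P i = lk Q i) :
    P = Q := by
  apply Nat.eq_of_testBit_eq
  intro k
  by_cases hk : k < 120
  · have key : ∀ X : ℕ, X.testBit k = (lk X (k / 5)).testBit (k % 5) := by
      intro X
      have e : lk X (k / 5) = (X >>> (5 * (k / 5))) &&& 31 := rfl
      rw [e, Nat.testBit_and, Nat.testBit_shiftRight]
      have h31 : (31 : ℕ).testBit (k % 5) = true := by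
        have : k % 5 < 5 := Nat.mod_lt _ (by norm_num)
        interval_cases (k % 5) <;> rfl
      rw [h31, Bool.and_true, Nat.div_add_mod]
    rw [key P, key Q, h (k / 5) (by omega)]
  · have h1 : P < 2 ^ k := lt_of_lt_of_le hP (Nat.pow_le_pow_right (by norm_num) (by omega))
    have h2 : Q < 2 ^ k := lt_of_lt_of_le hQ (Nat.pow_le_pow_right (by norm_num) (by omega))
    rw [Nat.testBit_lt_two_pow h1, Nat.testBit_lt_two_pow h2]

theorem mulN_lt (P Q : ℕ) : mulN P Q < 2 ^ 120 := by
  unfold mulN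
  have := packF_lt (fun i => lk P (lk Q i)) (fun i => lk_lt32 _ _) 24
  calc packF (fun i => lk P (lk Q i)) 24 < 32 ^ 24 := this
    _ = 2 ^ 120 := by norm_num

theorem fldG_lt (X i : ℕ) : fldG X i < 2 ^ 120 := by
  have h : fldG X i = (X >>> (120 * i)) &&& (2 ^ 120 - 1) := rfl
  rw [h]
  exact lt_of_le_of_lt Nat.and_le_right (by norm_num)

theorem lk_eq_of_rep {P Q : ℕ} {g : Equiv.Perm GolayPt} (hP : Rep P g) (hQ : Rep Q g) :
    ∀ i < 24, lk P i = lk Q i := by
  intro i hi
  have h1 := hP (gPt i)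
  have h2 := hQ (gPt i)
  rw [gIdx_gPt hi] at h1 h2
  rw [← h1, ← h2]

/-- canonical packed forms of the same permutation are equal -/
theorem canon_rep {P Q : ℕ} {g : Equiv.Perm GolayPt} (hP : P < 2 ^ 120) (hQ : Q < 2 ^ 120)
    (h1 : Rep P g) (h2 : Rep Q g) : P = Q :=
  canon hP hQ (lk_eq_of_rep h1 h2)

theorem rep_permOf_inv (P Q : ℕ) (h : chkInv P Q = true) : Rep Q (permOf P Q h)⁻¹ := by
  intro p
  exact gIdx_gPt (chkInv_spec h (gIdx p) (gIdx_lt p)).2.1

/-! ### counting through an enumeration -/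

theorem card_filter_enum {α : Type*} [Fintype α] [DecidableEq α] (Q : α → Prop) [DecidablePred Q]
    (N : ℕ) (R : ℕ → α → Prop) (pass : ℕ → Bool)
    (h1 : ∀ n < N, pass n = true → ∃ a, Q a ∧ R n a)
    (h2 : ∀ m < N, ∀ n < N, ∀ a, R m a → R n a → m = n)
    (h3 : ∀ a, Q a → ∃ n < N, pass n = true ∧ R n a)
    (h4 : ∀ n a a', R n a → R n a' → a = a') :
    (Finset.univ.filter Q).card = countB pass N := by
  classical
  rw [countB_eq]
  symm
  have hmem : ∀ n ∈ (Finset.range N).filter (fun k => pass k = true), n < N ∧ pass n = true := by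
    intro n hn
    rw [Finset.mem_filter, Finset.mem_range] at hn
    exact hn
  apply Finset.card_bij
    (fun n hn => Classical.choose (h1 n (hmem n hn).1 (hmem n hn).2))
  · intro n hn
    rw [Finset.mem_filter]
    exact ⟨Finset.mem_univ _, (Classical.choose_spec (h1 n (hmem n hn).1 (hmem n hn).2)).1⟩
  · intro m hm n hn hmn
    have e1 := (Classical.choose_spec (h1 m (hmem m hm).1 (hmem m hm).2)).2
    have e2 := (Classical.choose_spec (h1 n (hmem n hn).1 (hmem n hn).2)).2
    rw [hmn] at e1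
    exact h2 m (hmem m hm).1 n (hmem n hn).1 _ e1 e2
  · intro a ha
    rw [Finset.mem_filter] at ha
    obtain ⟨n, hn, hp, hr⟩ := h3 a ha.2
    have hn' : n ∈ (Finset.range N).filter (fun k => pass k = true) := by
      rw [Finset.mem_filter, Finset.mem_range]; exact ⟨hn, hp⟩
    refine ⟨n, hn', ?_⟩
    exact h4 n _ _ (Classical.choose_spec (h1 n (hmem n hn').1 (hmem n hn').2)).2 hr

/-! ### forcing evaluation in the kernel -/

/-- `f x`, with `x` evaluated first -/
def strictN (x : ℕ) (f : ℕ → ℕ) : ℕ :=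
  match x with
  | 0 => f 0
  | n + 1 => f (n + 1)

theorem strictN_eq (x : ℕ) (f : ℕ → ℕ) : strictN x f = f x := by
  cases x <;> rfl

/-- `f x`, with `x` evaluated first -/
def strictB (x : ℕ) (f : ℕ → Bool) : Bool :=
  match x with
  | 0 => f 0
  | n + 1 => f (n + 1)

theorem strictB_eq (x : ℕ) (f : ℕ → Bool) : strictB x f = f x := by
  cases x <;> rfl

/-- the invariant of a product of packed permutations -/
def cdM (B z : ℕ) : ℕ := strictN (mulN B z) (fun h => sel (cd3N h) (strictN (mulN h h) cdSN))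

theorem cdM_eq (B z : ℕ) : cdM B z = cdN (mulN B z) := by
  unfold cdM cdN
  rw [strictN_eq, strictN_eq]

/-- nested universal checks -/
theorem allB2 {f : ℕ → Bool} {a b : ℕ}
    (h : allB (fun d => allB (fun n => f (Nat.add (Nat.mul d b) n)) b) a = true) (hb : 0 < b) :
    ∀ idx < a * b, f idx = true := by
  intro idx hidx
  have hd : idx / b < a := by
    rw [Nat.div_lt_iff_lt_mul hb]; exact hidx
  have hn : idx % b < b := Nat.mod_lt _ hb
  have h1 := (allB_iff _ _).mp ((allB_iff _ _).mp h (idx / b) hd) (idx % b) hn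
  have e : Nat.add (Nat.mul (idx / b) b) (idx % b) = idx := Nat.div_add_mod' idx b
  rw [e] at h1
  exact h1

end Cfsg.Agent.H33.Blk
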