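
/-!
# Column data: square roots of the class representatives and commuting involutions (helper33; generated)
-/

set_option autoImplicit false

namespace Cfsg.Agent.H33.Blk

def cB_0 : Nat := 0xbdab49ca307b9ac5a928398a418820

def cBI_0 : Nat := 0xbdab49ca307b9ac5a928398a418820

def cW_0 : Nat := 0x4465950f81c649a5517524c6d6d7

def cB_3 : Nat := 0x7a2b759a50a3a6c6a925246c338402

def cBI_3 : Nat := 0xa16af6c4d0bb96c9a9361c90720041

def cW_3 : Nat := 0xd828b66e0c255325442ace8b51f7

def cB_4 : Nat := 0x4aded53276448ce844f5bd08328402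

def cBI_4 : Nat := 0x3c1068b94bab292b4eef4b46520041

def cW_4 : Nat := 0x18b0629d41c5736c82415aa879d37

def cB_5 : Nat := 0xbdb2a3007aa553838a4bc6c8188cb

def cBI_5 : Nat := 0x395f3650cbb2ab2035c48052818af1

def cW_5 : Nat := 0xbcb265211b2933039a431ea810eeb

def cB_8 : Nat := 0x3d85275634499ec58464521b32c017

def cBI_8 : Nat := 0x5a50252226ccac59de6bb8684d541

def cW_8 : Nat := 0x1300a28567335d68d10983e6325e55

def cB_11 : Nat := 0x506b7112326a56f40ed329a8e03207

def cBI_11 : Nat := 0xa26a544221611e26ddcb018f254ec3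

def cW_11 : Nat := 0x15a33a4ab01b80a3b125599047dc2d

def cB_14 : Nat := 0x7b9542ae409b12d80c560990725e35

def cBI_14 : Nat := 0x120147c42bbd98e955a521a63524f0

def cW_14 : Nat := 0x4465950f81c649a5517524c6d6d7

def cB_18 : Nat := 0x7196145e2014d8a3b4b220eaf85934

def cBI_18 : Nat := 0x908a07222325d4dab0335d92733e90

def cB_19 : Nat := 0x625a082e449d5e132225b29d411ee3

def cBI_19 : Nat := 0x9dc47c533696b791aca12d1000d94

def cB_20 : Nat := 0x2c0e4136417a26035eb455a2962c6e

def cBI_20 : Nat := 0x519286c4b67824311c8eaaef40ce0c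

end Cfsg.Agent.H33.Blk
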