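import Cfsg.Agent.H33.Blk.PassDef
import Cfsg.Agent.H33.Blk.ColData
import Cfsg.Agent.H33.Blk.ColDat2
import Cfsg.Agent.S5608

/-!
# Parity masks of the columns [0, 3, 4] (helper33; generated)
-/

set_option autoImplicit false

namespace Cfsg.Agent.H33.Blk

open Cfsg Cfsg.Agent.H9 Cfsg.Agent.H33 Cfsg.Agent.H94 Cfsg.Agent.S5608

theorem pass_0 : passG (commN cW_0) cB_0 = E_0 := by decide +kernel

theorem pass_3 : passG (commN cW_3) cB_3 = E_3 := by decide +kernel

theorem pass_4 : passG (commN cW_4) cB_4 = E_4 := by decide +kernel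

end Cfsg.Agent.H33.Blk
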