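import Cfsg.Agent.H33.Blk.PassDef
import Cfsg.Agent.H33.Blk.ColData
import Cfsg.Agent.H33.Blk.ColDat2
import Cfsg.Agent.S5608

/-!
# Parity masks of the columns [5, 8] (helper33; generated)
-/

set_option autoImplicit false

namespace Cfsg.Agent.H33.Blk

open Cfsg Cfsg.Agent.H9 Cfsg.Agent.H33 Cfsg.Agent.H94 Cfsg.Agent.S5608

theorem pass_5 : passG (commN cW_5) cB_5 = E_5 := by decide +kernel

theorem pass_8 : passG (commN cW_8) cB_8 = E_8 := by decide +kernel

end Cfsg.Agent.H33.Blk
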