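import Cfsg.Agent.H33.Blk.PassDef
import Cfsg.Agent.H33.Blk.ColData
import Cfsg.Agent.H33.Blk.ColDat2
import Cfsg.Agent.S5608

/-!
# Parity masks of the columns [11, 14] (helper33; generated)
-/

set_option autoImplicit false

namespace Cfsg.Agent.H33.Blk

open Cfsg Cfsg.Agent.H9 Cfsg.Agent.H33 Cfsg.Agent.H94 Cfsg.Agent.S5608

theorem pass_11 : passG (commN cW_11) cB_11 = E_11 := by decide +kernel

theorem pass_14 : passG (commN cW_14) cB_14 = E_14 := by decide +kernel

end Cfsg.Agent.H33.Blk
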