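import Cfsg.Agent.H33.Blk.Pass
import Cfsg.Agent.H33.Blk.Sqrt
import Cfsg.Agent.H94.EltCls

/-!
# The columns of the squares of the class sums of `M24` modulo 2: general statements (helper33)

For an element `ρ` of `M24` and a value `κ` of the class invariant, the number of `x` with
invariant `κ` such that `x⁻¹ * ρ` has invariant `κ` is computed modulo 2 from packed data:
* `colI_pack`, `colU_pack`: `ρ = b * b` (a pass over the elements of square one, restricted to the
  centraliser of an involution centralising or inverting `b` in `colI_pack`);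
* `colS_pack`: `ρ = c * b * b` with `c` an involution commuting with `b` whose square roots are
  enumerated;
* `colN_pack`: `ρ = c * b * b` with `c` a 2-element commuting with `b` and without square roots.
-/

set_option autoImplicit false

namespace Cfsg.Agent.H33.Blk

open Cfsg Cfsg.Agent.H9 Cfsg.Agent.H33 Cfsg.Agent.H94 Cfsg.Agent.S5608

/-- an element of `M24` from packed data -/
def mkE (P Q : ℕ) (h : chkInv P Q = true) (hm : chkM24 P = true) : ↥M24 :=
  ⟨permOf P Q h, permOf_mem_M24 P Q h hm⟩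

theorem mkE_rep (P Q : ℕ) (h : chkInv P Q = true) (hm : chkM24 P = true) :
    Rep P (mkE P Q h hm).1 := rep_permOf P Q h

theorem mkE_rep_inv (P Q : ℕ) (h : chkInv P Q = true) (hm : chkM24 P = true) :
    Rep Q ((mkE P Q h hm)⁻¹ : ↥M24).1 := rep_permOf_inv P Q h

theorem exists_elt {P Q : ℕ} (h : chkInv P Q = true) (hm : chkM24 P = true) :
    ∃ b : ↥M24, Rep P b.1 ∧ Rep Q (b⁻¹ : ↥M24).1 :=
  ⟨mkE P Q h hm, mkE_rep P Q h hm, mkE_rep_inv P Q h hm⟩

theorem colI_pack [Fintype ↥M24] {B BI W R E : ℕ} (hB : chkInv B BI = true)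
    (hBm : chkM24 B = true) (hW : chkInv W W = true) (hWm : chkM24 W = true)
    (hrel : relN B B W = true ∨ relN B BI W = true)
    (hsq : mulN B B = R) (hpass : passG (commN W) B = E) {ρ : ↥M24} (hρ : Rep R ρ.1) (κ : ℕ) :
    (Finset.univ.filter fun x : ↥M24 => cdG x = κ ∧ cdG (x⁻¹ * ρ) = κ).card % 2
      = if E.testBit κ = true then 1 else 0 := by
  obtain ⟨b, hb, hbi⟩ := exists_elt hB hBm
  obtain ⟨w, hw, -⟩ := exists_elt hW hWm
  have e : ρ = b * b := by
    apply Subtype.ext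
    have h1 := rep_mulN hb hb
    rw [hsq] at h1
    exact rep_uniq hρ h1
  have hww : w * w = 1 := by
    apply Subtype.ext
    have e1 : w.1 = permOf W W hW := rep_uniq hw (rep_permOf W W hW)
    show w.1 * w.1 = 1
    rw [e1]
    exact permOf_self_sq hW
  have hwb : w * b * w⁻¹ = b ∨ w * b * w⁻¹ = b⁻¹ := by
    rcases hrel with h | h
    · left
      have h1 : w.1 * b.1 = b.1 * w.1 := rel_of_relN hb hb hw h
      have h2 : w * b = b * w := Subtype.ext h1
      rw [h2]
      group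
    · right
      have h1 : w.1 * b.1 = (b⁻¹ : ↥M24).1 * w.1 := rel_of_relN hb hbi hw h
      have h2 : w * b = b⁻¹ * w := Subtype.ext h1
      rw [h2]
      group
  have hF : ∀ (t : ℕ) (z : ↥M24), Rep t z.1 → (commN W t = true ↔ w * z = z * w) := by
    intro t z hz
    constructor
    · intro h
      exact Subtype.ext (comm_of_commN hw hz h)
    · intro h
      exact commN_of hw hz (congrArg Subtype.val h)
  rw [e, ← hpass]
  exact colI_gen b w B hb (commN W) hww hwb hF κ

theorem colU_pack [Fintype ↥M24] {B BI R E : ℕ} (hB : chkInv B BI = true)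
    (hBm : chkM24 B = true) (hsq : mulN B B = R) (hpass : passG (fun _ => true) B = E)
    {ρ : ↥M24} (hρ : Rep R ρ.1) (κ : ℕ) :
    (Finset.univ.filter fun x : ↥M24 => cdG x = κ ∧ cdG (x⁻¹ * ρ) = κ).card % 2
      = if E.testBit κ = true then 1 else 0 := by
  obtain ⟨b, hb, -⟩ := exists_elt hB hBm
  have e : ρ = b * b := by
    apply Subtype.ext
    have h1 := rep_mulN hb hb
    rw [hsq] at h1
    exact rep_uniq hρ h1
  rw [e, ← hpass]
  exact colI_gen b 1 B hb (fun _ => true) (one_mul 1) (Or.inl (by group))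
    (fun t z _ => ⟨fun _ => by rw [one_mul, mul_one], fun _ => rfl⟩) κ

/-- a column through the square roots of an involution -/
theorem colS_gen [Fintype ↥M24] (c b : ↥M24) (hcb : c * b = b * c) (hc : c * c = 1) (B : ℕ)
    (hB : Rep B b.1) (SQ N : ℕ)
    (hmem : ∀ n < N, ∃ z : Equiv.Perm GolayPt, z ∈ M24 ∧ z * z = c.1 ∧ Rep (fldG SQ n) z)
    (hinj : ∀ m < N, ∀ n < N, fldG SQ m = fldG SQ n → m = n)
    (hsurj : ∀ z : Equiv.Perm GolayPt, z ∈ M24 → z * z = c.1 → ∃ n < N, Rep (fldG SQ n) z)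
    (κ : ℕ) :
    (Finset.univ.filter fun x : ↥M24 => cdG x = κ ∧ cdG (x⁻¹ * (c * b * b)) = κ).card % 2
      = if (par (fun n => cdM B (fldG SQ n)) N).testBit κ = true then 1 else 0 := by
  classical
  have h1 := par_gen (fun g : ↥M24 => cdG g = κ) (fun g h => by rw [cdG_conj])
    (fun g => by rw [cdG_inv]) (c * b) b (by rw [← mul_assoc b c b, ← hcb]) 1
    (by rw [mul_inv_cancel_right, pow_one, pow_two, hc])
  have e : (Finset.univ.filter fun z : ↥M24 => z * z = c * b * b⁻¹ ∧ cdG (b * z) = κ)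
      = (Finset.univ.filter fun z : ↥M24 => z * z = c ∧ cdG (b * z) = κ) := by
    apply Finset.filter_congr
    intro z _
    rw [mul_inv_cancel_right]
  rw [e] at h1
  have h2 : (Finset.univ.filter fun z : ↥M24 => z * z = c ∧ cdG (b * z) = κ).card
      = countB (fun n => Nat.beq (cdM B (fldG SQ n)) κ) N := by
    apply card_filter_enum (fun z : ↥M24 => z * z = c ∧ cdG (b * z) = κ) N
      (fun n z => Rep (fldG SQ n) z.1) (fun n => Nat.beq (cdM B (fldG SQ n)) κ)
    · intro n hn hp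
      obtain ⟨z, hzm, hzz, hr⟩ := hmem n hn
      refine ⟨⟨z, hzm⟩, ⟨Subtype.ext hzz, ?_⟩, hr⟩
      have h := Nat.eq_of_beq_eq_true hp
      rw [cdM_eq, cdN_eq (rep_mulN hB hr)] at h
      exact h
    · intro m hm n hn a r1 r2
      exact hinj m hm n hn (canon_rep (fldG_lt _ _) (fldG_lt _ _) r1 r2)
    · rintro a ⟨a1, a2⟩
      obtain ⟨n, hn, hr⟩ := hsurj a.1 a.2 (congrArg Subtype.val a1)
      refine ⟨n, hn, ?_, hr⟩
      rw [cdM_eq, cdN_eq (rep_mulN hB hr)]
      have h4 : cdP (b.1 * a.1) = κ := a2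
      rw [h4]
      exact Nat.beq_refl _
    · intro n a a' r1 r2
      exact Subtype.ext (rep_uniq r1 r2)
  rw [h1, h2, testBit_par]
  exact mod_two_ite _

theorem colS_pack [Fintype ↥M24] {B BI C R E SQ N : ℕ} {c : ↥M24} (hC : Rep C c.1)
    (hc : c * c = 1) (hB : chkInv B BI = true) (hBm : chkM24 B = true)
    (hcomm : commN C B = true) (hprod : mulN C (mulN B B) = R)
    (hmem : ∀ n < N, ∃ z : Equiv.Perm GolayPt, z ∈ M24 ∧ z * z = c.1 ∧ Rep (fldG SQ n) z)
    (hinj : ∀ m < N, ∀ n < N, fldG SQ m = fldG SQ n → m = n)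
    (hsurj : ∀ z : Equiv.Perm GolayPt, z ∈ M24 → z * z = c.1 → ∃ n < N, Rep (fldG SQ n) z)
    (hpass : par (fun n => cdM B (fldG SQ n)) N = E) {ρ : ↥M24} (hρ : Rep R ρ.1) (κ : ℕ) :
    (Finset.univ.filter fun x : ↥M24 => cdG x = κ ∧ cdG (x⁻¹ * ρ) = κ).card % 2
      = if E.testBit κ = true then 1 else 0 := by
  obtain ⟨b, hb, -⟩ := exists_elt hB hBm
  have e : ρ = c * b * b := by
    apply Subtype.ext
    have h1 := rep_mulN hC (rep_mulN hb hb)
    rw [hprod] at h1
    rw [mul_assoc]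
    exact rep_uniq hρ h1
  have hcb : c * b = b * c := Subtype.ext (comm_of_commN hC hb hcomm)
  rw [e, ← hpass]
  exact colS_gen c b hcb hc B hb SQ N hmem hinj hsurj κ

/-- squares in `M24` have the invariant of the square of a representative -/
theorem cd_sq {z : Equiv.Perm GolayPt} (hz : z ∈ M24) :
    ∃ i < 21, cdP (z * z) = cdN (mulN (fldG RR i) (fldG RR i)) := by
  obtain ⟨k, -, i, hi, h | h⟩ := cl_main hz
  · refine ⟨i, hi, ?_⟩
    rw [cdN_eq (rep_mulN (rhoN_rep hi) (rhoN_rep hi)), ← h]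
    have e : k * z * k⁻¹ * (k * z * k⁻¹) = k * (z * z) * k⁻¹ := by group
    rw [e, cdP_conj]
  · refine ⟨i, hi, ?_⟩
    rw [cdN_eq (rep_mulN (rhoN_rep hi) (rhoN_rep hi))]
    have e : rhoN i * rhoN i = (k * (z * z) * k⁻¹)⁻¹ := by
      have e1 : rhoN i = (k * z * k⁻¹)⁻¹ := by rw [h, inv_inv]
      rw [e1]
      group
    rw [e, cdP_inv, cdP_conj]

theorem colN_pack [Fintype ↥M24] {B BI C CI R : ℕ} (k : ℕ) (hB : chkInv B BI = true)
    (hBm : chkM24 B = true) (hC : chkInv C CI = true) (hCm : chkM24 C = true)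
    (hcomm : commN C B = true) (hprod : mulN C (mulN B B) = R) (hk : fixN (pwN C (2 ^ k)) = 24)
    (hno : allB (fun i => !(Nat.beq (cdN (mulN (fldG RR i) (fldG RR i))) (cdN C))) 21 = true)
    {ρ : ↥M24} (hρ : Rep R ρ.1) (κ : ℕ) :
    (Finset.univ.filter fun x : ↥M24 => cdG x = κ ∧ cdG (x⁻¹ * ρ) = κ).card % 2 = 0 := by
  classical
  obtain ⟨b, hb, -⟩ := exists_elt hB hBm
  obtain ⟨c, hc, -⟩ := exists_elt hC hCm
  have e : ρ = c * b * b := by
    apply Subtype.ext
    have h1 := rep_mulN hc (rep_mulN hb hb)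
    rw [hprod] at h1
    rw [mul_assoc]
    exact rep_uniq hρ h1
  have hcb : c * b = b * c := Subtype.ext (comm_of_commN hc hb hcomm)
  have hck : c ^ (2 ^ k) = 1 := by
    apply Subtype.ext
    have h1 : c.1 ^ (2 ^ k) = 1 := eq_one_of_fixN (rep_pwN hc (2 ^ k)) hk
    simpa using h1
  have h1 := par_gen (fun g : ↥M24 => cdG g = κ) (fun g h => by rw [cdG_conj])
    (fun g => by rw [cdG_inv]) (c * b) b (by rw [← mul_assoc b c b, ← hcb]) k
    (by rw [mul_inv_cancel_right, hck])
  have hempty : (Finset.univ.filter fun z : ↥M24 => z * z = c * b * b⁻¹ ∧ cdG (b * z) = κ) = ∅ := by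
    rw [Finset.filter_eq_empty_iff]
    rintro z - ⟨hz, -⟩
    rw [mul_inv_cancel_right] at hz
    obtain ⟨i, hi, hcd⟩ := cd_sq z.2
    have h2 := (allB_iff _ _).mp hno i hi
    have h3 : cdP (z.1 * z.1) = cdN C := by
      rw [cdN_eq hc]
      exact congrArg (fun u : ↥M24 => cdP u.1) hz
    rw [← hcd, h3, Nat.beq_refl] at h2
    exact absurd h2 (by decide)
  rw [e, h1, hempty]
  rfl

end Cfsg.Agent.H33.Blk
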