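import Cfsg.Agent.H33.Blk.OddDef
import Cfsg.Agent.H33.Blk.ColDat2
import Cfsg.Agent.H33.Blk.ColPO

/-!
# Partial parity mask 12 of the column 18 (helper33; generated)
-/

set_option autoImplicit false

namespace Cfsg.Agent.H33.Blk

open Cfsg Cfsg.Agent.H9 Cfsg.Agent.H33 Cfsg.Agent.H94 Cfsg.Agent.S5608

theorem rO_18_12 : rngG (fO 9 7441151) cB_18 12 = PTO_18 12 := by decide +kernel

end Cfsg.Agent.H33.Blk
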