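import Cfsg.Agent.H33.Blk.Par

/-!
# Counting modulo 2 through the orbits of an element of odd order (helper33)

`par_orbit`: let `b` have odd order `n` and let the orbit of the point `p` under `b` be regular.
The number of `z` with `z * z = 1` and `b * z` in a conjugation-invariant set has the same parity
as the number of those `z` that fix `p` or move it out of its orbit under `b`.  (Conjugation by the
powers of `b` permutes these `z`; an element of square one has an odd number of conjugates of the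
restricted kind, because it moves an even number of points of the orbit to other points of it.)
-/

set_option autoImplicit false

namespace Cfsg.Agent.H33.Blk

open Finset

/-- an element of square one moves an even number of points of `O` to other points of `O` -/
theorem card_moved_even {α : Type*} [DecidableEq α] (z : Equiv.Perm α) (hz : z * z = 1)
    (O : Finset α) : (O.filter fun x => z x ≠ x ∧ z x ∈ O).card % 2 = 0 := by
  have hzz : ∀ x, z (z x) = x := fun x => congrArg (fun f : Equiv.Perm α => f x) hz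
  have h := card_invol_mod (O.filter fun x => z x ≠ x ∧ z x ∈ O) z
    (by
      intro x hx
      rw [mem_filter] at hx ⊢
      refine ⟨hx.2.2, ?_, ?_⟩
      · rw [hzz]
        exact fun h => hx.2.1 h.symm
      · rw [hzz]
        exact hx.1)
    (fun x _ => hzz x)
  rw [h]
  have e : ((O.filter fun x => z x ≠ x ∧ z x ∈ O).filter fun x => z x = x) = ∅ := by
    rw [filter_eq_empty_iff]
    intro x hx
    rw [mem_filter] at hx
    exact hx.2.1
  rw [e]
  rfl

theorem sum_odd_mod {ι : Type*} (s : Finset ι) (f : ι → ℕ) (h : ∀ i ∈ s, f i % 2 = 1) :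
    (∑ i ∈ s, f i) % 2 = s.card % 2 := by
  rw [Finset.sum_nat_mod, Finset.sum_congr rfl h, Finset.sum_const, smul_eq_mul, mul_one]

theorem par_orbit {G : Type*} [Group G] [Fintype G] [DecidableEq G] {α : Type*} [DecidableEq α]
    (φ : G →* Equiv.Perm α) (Kc : G → Prop) [DecidablePred Kc]
    (hconj : ∀ g h : G, Kc (h * g * h⁻¹) ↔ Kc g)
    (b : G) (n : ℕ) (hn : b ^ n = 1) (hodd : n % 2 = 1) (p : α)
    (hinj : ∀ k < n, ∀ l < n, (φ b ^ k) p = (φ b ^ l) p → k = l) :
    (univ.filter fun z : G => z * z = 1 ∧ Kc (b * z)).card % 2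
      = (univ.filter fun z : G => z * z = 1 ∧
          (φ z p = p ∨ ∀ k < n, φ z p ≠ (φ b ^ k) p) ∧ Kc (b * z)).card % 2 := by
  classical
  obtain ⟨β, hβ⟩ : ∃ β : Equiv.Perm α, β = φ b := ⟨_, rfl⟩
  rw [← hβ] at hinj ⊢
  have hβn : β ^ n = 1 := by rw [hβ, ← map_pow, hn, map_one]
  have hnpos : 0 < n := by omega
  obtain ⟨O, hO⟩ : ∃ O : Finset α, O = (range n).image (fun k => (β ^ k) p) := ⟨_, rfl⟩
  have hxinj : Set.InjOn (fun k => (β ^ k) p) (range n : Set ℕ) := by
    intro k hk l hl h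
    exact hinj k (mem_range.mp (mem_coe.mp hk)) l (mem_range.mp (mem_coe.mp hl)) h
  have hOcard : O.card = n := by
    rw [hO, card_image_of_injOn hxinj, card_range]
  have hmemO : ∀ y, y ∈ O ↔ ∃ k < n, (β ^ k) p = y := by
    intro y
    rw [hO, mem_image]
    constructor
    · rintro ⟨k, hk, rfl⟩
      exact ⟨k, mem_range.mp hk, rfl⟩
    · rintro ⟨k, hk, rfl⟩
      exact ⟨k, mem_range.mpr hk, rfl⟩
  have hOβ : ∀ y ∈ O, β y ∈ O := by
    intro y hy
    obtain ⟨k, hk, rfl⟩ := (hmemO y).mp hy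
    rw [hmemO]
    by_cases h : k + 1 < n
    · exact ⟨k + 1, h, by rw [pow_succ', Equiv.Perm.mul_apply]⟩
    · have e : k + 1 = n := by omega
      refine ⟨0, hnpos, ?_⟩
      rw [pow_zero, Equiv.Perm.one_apply, ← Equiv.Perm.mul_apply, ← pow_succ', e, hβn,
        Equiv.Perm.one_apply]
  have hOpow : ∀ m : ℕ, ∀ y ∈ O, (β ^ m) y ∈ O := by
    intro m
    induction m with
    | zero =>
      intro y hy
      rw [pow_zero, Equiv.Perm.one_apply]
      exact hy
    | succ m ih =>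
      intro y hy
      rw [pow_succ', Equiv.Perm.mul_apply]
      exact hOβ _ (ih y hy)
  have hβinv : β⁻¹ = β ^ (n - 1) :=
    inv_eq_of_mul_eq_one_right (by rw [← pow_succ', Nat.sub_add_cancel hnpos, hβn])
  have hOinv : ∀ (k : ℕ) (y : α), (β ^ k)⁻¹ y ∈ O ↔ y ∈ O := by
    intro k y
    have e : (β ^ k)⁻¹ = β ^ ((n - 1) * k) := by rw [← inv_pow, hβinv, ← pow_mul]
    constructor
    · intro h
      have h2 := hOpow k _ h
      rwa [← Equiv.Perm.mul_apply, mul_inv_cancel, Equiv.Perm.one_apply] at h2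
    · intro h
      rw [e]
      exact hOpow _ y h
  -- the restricted elements
  have hRO : ∀ z : G, (φ z p = p ∨ ∀ k < n, φ z p ≠ (β ^ k) p) ↔ (φ z p = p ∨ φ z p ∉ O) := by
    intro z
    rw [hmemO]
    constructor
    · rintro (h | h)
      · exact Or.inl h
      · exact Or.inr (fun ⟨k, hk, e⟩ => h k hk e.symm)
    · rintro (h | h)
      · exact Or.inl h
      · exact Or.inr (fun k hk e => h ⟨k, hk, e.symm⟩)
  -- conjugates
  have hφc : ∀ (z : G) (k : ℕ), φ ((b ^ k)⁻¹ * z * b ^ k) p = (β ^ k)⁻¹ (φ z ((β ^ k) p)) := by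
    intro z k
    rw [map_mul, map_mul, map_inv, map_pow, ← hβ]
    rfl
  have key : ∀ (z : G) (k : ℕ),
      (φ ((b ^ k)⁻¹ * z * b ^ k) p = p ∨ ∀ l < n, φ ((b ^ k)⁻¹ * z * b ^ k) p ≠ (β ^ l) p)
        ↔ (φ z ((β ^ k) p) = (β ^ k) p ∨ φ z ((β ^ k) p) ∉ O) := by
    intro z k
    rw [hRO, hφc, Equiv.Perm.inv_eq_iff_eq, hOinv]
  -- step 1: an odd number of conjugates is restricted
  have step1 : ∀ z : G, z * z = 1 → ((range n).filter fun k =>
      (φ ((b ^ k)⁻¹ * z * b ^ k) p = p ∨ ∀ l < n, φ ((b ^ k)⁻¹ * z * b ^ k) p ≠ (β ^ l) p)).card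
        % 2 = 1 := by
    intro z hz
    have e1 : ((range n).filter fun k =>
        (φ ((b ^ k)⁻¹ * z * b ^ k) p = p ∨ ∀ l < n, φ ((b ^ k)⁻¹ * z * b ^ k) p ≠ (β ^ l) p))
        = (range n).filter fun k => (φ z ((β ^ k) p) = (β ^ k) p ∨ φ z ((β ^ k) p) ∉ O) := by
      apply filter_congr
      intro k _
      exact key z k
    rw [e1]
    have e2 : (O.filter fun y => φ z y = y ∨ φ z y ∉ O).card
        = ((range n).filter fun k => (φ z ((β ^ k) p) = (β ^ k) p ∨ φ z ((β ^ k) p) ∉ O)).card := by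
      rw [hO, filter_image, card_image_of_injOn]
      exact hxinj.mono (by
        intro k hk
        exact mem_coe.mpr (mem_of_mem_filter k (mem_coe.mp hk)))
    rw [← e2]
    have e3 := card_filter_add_card_filter_not (s := O)
      (fun y => φ z y = y ∨ φ z y ∉ O)
    have e4 : (O.filter fun y => ¬ (φ z y = y ∨ φ z y ∉ O))
        = O.filter fun y => φ z y ≠ y ∧ φ z y ∈ O := by
      apply filter_congr
      intro y _
      rw [not_or, not_not]
    rw [e4] at e3
    have e5 := card_moved_even (φ z) (by rw [← map_mul, hz, map_one]) O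
    omega
  -- step 2: conjugation by a power of `b` permutes the elements in question
  obtain ⟨X, hX⟩ : ∃ X : Finset G, X = univ.filter fun z : G => z * z = 1 ∧ Kc (b * z) := ⟨_, rfl⟩
  have hXmem : ∀ z, z ∈ X ↔ (z * z = 1 ∧ Kc (b * z)) := by
    intro z
    rw [hX, mem_filter]
    exact ⟨fun h => h.2, fun h => ⟨mem_univ _, h⟩⟩
  have hXconj : ∀ (g : G), g * b = b * g → ∀ z, z ∈ X → g⁻¹ * z * g ∈ X := by
    intro g hg z hz
    rw [hXmem] at hz ⊢
    refine ⟨?_, ?_⟩
    · calc g⁻¹ * z * g * (g⁻¹ * z * g) = g⁻¹ * (z * z) * g := by group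
        _ = 1 := by rw [hz.1]; group
    · have e : b * (g⁻¹ * z * g) = g⁻¹ * (b * z) * g⁻¹⁻¹ := by
        have hg' : b * g⁻¹ = g⁻¹ * b := by
          calc b * g⁻¹ = g⁻¹ * (g * b) * g⁻¹ := by group
            _ = g⁻¹ * (b * g) * g⁻¹ := by rw [hg]
            _ = g⁻¹ * b := by group
        calc b * (g⁻¹ * z * g) = (b * g⁻¹) * z * g := by group
          _ = (g⁻¹ * b) * z * g := by rw [hg']
          _ = g⁻¹ * (b * z) * g⁻¹⁻¹ := by group
      rw [e, hconj]
      exact hz.2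
  have step2 : ∀ k : ℕ, (X.filter fun z =>
      (φ ((b ^ k)⁻¹ * z * b ^ k) p = p ∨ ∀ l < n, φ ((b ^ k)⁻¹ * z * b ^ k) p ≠ (β ^ l) p)).card
        = (X.filter fun z => (φ z p = p ∨ ∀ l < n, φ z p ≠ (β ^ l) p)).card := by
    intro k
    have hc : b ^ k * b = b * b ^ k := pow_mul_comm' b k
    have hc' : (b ^ k)⁻¹ * b = b * (b ^ k)⁻¹ := by
      calc (b ^ k)⁻¹ * b = (b ^ k)⁻¹ * (b * b ^ k) * (b ^ k)⁻¹ := by group
        _ = (b ^ k)⁻¹ * (b ^ k * b) * (b ^ k)⁻¹ := by rw [hc]
        _ = b * (b ^ k)⁻¹ := by group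
    apply card_bij (fun z _ => (b ^ k)⁻¹ * z * b ^ k)
    · intro z hz
      rw [mem_filter] at hz ⊢
      exact ⟨hXconj _ hc z hz.1, hz.2⟩
    · intro z _ z' _ h
      calc z = b ^ k * ((b ^ k)⁻¹ * z * b ^ k) * (b ^ k)⁻¹ := by group
        _ = b ^ k * ((b ^ k)⁻¹ * z' * b ^ k) * (b ^ k)⁻¹ := by rw [h]
        _ = z' := by group
    · intro y hy
      rw [mem_filter] at hy
      refine ⟨b ^ k * y * (b ^ k)⁻¹, ?_, by group⟩
      rw [mem_filter]
      have e : (b ^ k)⁻¹ * (b ^ k * y * (b ^ k)⁻¹) * b ^ k = y := by group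
      refine ⟨?_, by rw [e]; exact hy.2⟩
      have h2 := hXconj _ hc' y hy.1
      rwa [inv_inv] at h2
  -- step 3: double counting
  have hsum : ∑ z ∈ X, ((range n).filter fun k =>
      (φ ((b ^ k)⁻¹ * z * b ^ k) p = p ∨ ∀ l < n, φ ((b ^ k)⁻¹ * z * b ^ k) p ≠ (β ^ l) p)).card
      = n * (X.filter fun z => (φ z p = p ∨ ∀ l < n, φ z p ≠ (β ^ l) p)).card := by
    simp only [card_filter]
    rw [sum_comm]
    have e : ∀ k ∈ range n, (∑ z ∈ X, if
        (φ ((b ^ k)⁻¹ * z * b ^ k) p = p ∨ ∀ l < n, φ ((b ^ k)⁻¹ * z * b ^ k) p ≠ (β ^ l) p)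
        then 1 else 0) = ∑ z ∈ X, if (φ z p = p ∨ ∀ l < n, φ z p ≠ (β ^ l) p) then 1 else 0 := by
      intro k _
      have h := step2 k
      simp only [card_filter] at h
      exact h
    rw [sum_congr rfl e, sum_const, card_range, smul_eq_mul]
  have hpar := sum_odd_mod X _ (fun z hz => step1 z ((hXmem z).mp hz).1)
  rw [hsum] at hpar
  have e6 : (univ.filter fun z : G => z * z = 1 ∧
      (φ z p = p ∨ ∀ k < n, φ z p ≠ (β ^ k) p) ∧ Kc (b * z))
      = X.filter fun z => (φ z p = p ∨ ∀ l < n, φ z p ≠ (β ^ l) p) := by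
    ext z
    rw [mem_filter, mem_filter, hXmem]
    constructor
    · rintro ⟨-, h1, h2, h3⟩
      exact ⟨⟨h1, h3⟩, h2⟩
    · rintro ⟨⟨h1, h3⟩, h2⟩
      exact ⟨mem_univ _, h1, h2, h3⟩
  rw [e6, ← hX, ← hpar, Nat.mul_mod, hodd, one_mul, Nat.mod_mod]

end Cfsg.Agent.H33.Blk
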