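import Cfsg.Agent.H33.Blk.PassDef

/-!
# A filter for the passes over the elements of square one: definitions (helper33)
-/

set_option autoImplicit false

namespace Cfsg.Agent.H33.Blk

open Cfsg Cfsg.Agent.H9 Cfsg.Agent.H33 Cfsg.Agent.H94

/-- the bit `q` of the mask `M` -/
def tb (M q : ℕ) : Bool := Nat.beq (Nat.land (Nat.shiftRight M q) 1) 1

/-- the packed permutation `t` fixes the index `p0` or moves it out of the set with mask `MO` -/
def fO (p0 MO t : ℕ) : Bool := Nat.beq (lk t p0) p0 || !(tb MO (lk t p0))

end Cfsg.Agent.H33.Blk
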