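import Cfsg.Agent.H33.Blk.ColGen
import Cfsg.Agent.H33.Blk.Odd
import Cfsg.Agent.H33.Blk.OddDef

/-!
# Columns at elements `b * b` with `b` of odd order and a regular orbit (helper33)

`colO_pack`: as `colU_pack`, with the pass restricted to the elements of square one that fix a
point `p0` of a regular orbit of `b` or move it out of this orbit (`par_orbit`).
-/

set_option autoImplicit false

namespace Cfsg.Agent.H33.Blk

open Cfsg Cfsg.Agent.H9 Cfsg.Agent.H33 Cfsg.Agent.H94 Cfsg.Agent.S5608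

theorem colO_gen [Fintype ↥M24] (b : ↥M24) (B : ℕ) (hB : Rep B b.1) (n : ℕ) (hn : b ^ n = 1)
    (hodd : n % 2 = 1) (p : GolayPt)
    (hinj : ∀ k < n, ∀ l < n, (b.1 ^ k) p = (b.1 ^ l) p → k = l) (F : ℕ → Bool)
    (hF : ∀ (t : ℕ) (z : ↥M24), Rep t z.1 →
      (F t = true ↔ (z.1 p = p ∨ ∀ k < n, z.1 p ≠ (b.1 ^ k) p))) (κ : ℕ) :
    (Finset.univ.filter fun x : ↥M24 => cdG x = κ ∧ cdG (x⁻¹ * (b * b)) = κ).card % 2
      = if (passG F B).testBit κ = true then 1 else 0 := by
  classical
  have h1 := colI_start b κ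
  have h2 := par_orbit (M24.subtype) (fun g : ↥M24 => cdG g = κ) (fun g h => by rw [cdG_conj])
    b n hn hodd p hinj
  have h3 := colI_mask b (fun z : ↥M24 => z.1 p = p ∨ ∀ k < n, z.1 p ≠ (b.1 ^ k) p) B hB F hF κ
  rw [h1, ← h3, h2]
  congr 1

theorem colO_pack [Fintype ↥M24] {B BI R E : ℕ} (n p0 MO : ℕ) (hB : chkInv B BI = true)
    (hBm : chkM24 B = true) (hsq : mulN B B = R) (hn : fixN (pwN B n) = 24) (hodd : n % 2 = 1)
    (hp0 : p0 < 24)
    (horb : allB (fun k => allB (fun l => Nat.beq k l ||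
      !(Nat.beq (itN B k p0) (itN B l p0))) n) n = true)
    (hmask : allB (fun q => cond (tb MO q) (anyB (fun k => Nat.beq q (itN B k p0)) n)
      (!(anyB (fun k => Nat.beq q (itN B k p0)) n))) 24 = true)
    (hpass : passG (fO p0 MO) B = E) {ρ : ↥M24} (hρ : Rep R ρ.1) (κ : ℕ) :
    (Finset.univ.filter fun x : ↥M24 => cdG x = κ ∧ cdG (x⁻¹ * ρ) = κ).card % 2
      = if E.testBit κ = true then 1 else 0 := by
  obtain ⟨b, hb, -⟩ := exists_elt hB hBm
  have e : ρ = b * b := by
    apply Subtype.ext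
    have h1 := rep_mulN hb hb
    rw [hsq] at h1
    exact rep_uniq hρ h1
  have hbn : b ^ n = 1 := by
    apply Subtype.ext
    have h1 : b.1 ^ n = 1 := eq_one_of_fixN (rep_pwN hb n) hn
    simpa using h1
  have hpow : ∀ k : ℕ, (b.1 ^ k) (gPt p0) = gPt (itN B k p0) := fun k => pow_apply_gPt hb k hp0
  have hlt : ∀ k : ℕ, itN B k p0 < 24 := fun k => itN_lt hb k hp0
  have hgi : ∀ i j : ℕ, i < 24 → j < 24 → (gPt i = gPt j ↔ i = j) := by
    intro i j hi hj
    constructor
    · intro h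
      have h2 := congrArg gIdx h
      rwa [gIdx_gPt hi, gIdx_gPt hj] at h2
    · intro h
      rw [h]
  have hinj : ∀ k < n, ∀ l < n, (b.1 ^ k) (gPt p0) = (b.1 ^ l) (gPt p0) → k = l := by
    intro k hk l hl h
    rw [hpow, hpow, hgi _ _ (hlt k) (hlt l)] at h
    have h2 := (allB_iff _ _).mp ((allB_iff _ _).mp horb k hk) l hl
    rw [h, Nat.beq_refl, Bool.not_true, Bool.or_false] at h2
    exact Nat.eq_of_beq_eq_true h2
  have hF : ∀ (t : ℕ) (z : ↥M24), Rep t z.1 →
      (fO p0 MO t = true ↔ (z.1 (gPt p0) = gPt p0 ∨ ∀ k < n, z.1 (gPt p0) ≠ (b.1 ^ k) (gPt p0))) := by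
    intro t z hz
    have hq : lk t p0 < 24 := Cfsg.Agent.S5614.lk_lt_of_rep hz hp0
    have hzp : z.1 (gPt p0) = gPt (lk t p0) := rep_apply hz hp0
    have hm := (allB_iff _ _).mp hmask (lk t p0) hq
    unfold fO
    rw [hzp, Bool.or_eq_true, hgi _ _ hq hp0]
    constructor
    · rintro (h | h)
      · exact Or.inl (Nat.eq_of_beq_eq_true h)
      · right
        intro k hk hcon
        rw [hpow, hgi _ _ hq (hlt k)] at hcon
        have htb : tb MO (lk t p0) = false := by
          cases hc : tb MO (lk t p0)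
          · rfl
          · rw [hc] at h
            exact absurd h (by decide)
        rw [htb, cond_false] at hm
        have hany : anyB (fun k => Nat.beq (lk t p0) (itN B k p0)) n = true :=
          (anyB_iff _ _).mpr ⟨k, hk, by rw [← hcon]; exact Nat.beq_refl _⟩
        rw [hany] at hm
        exact absurd hm (by decide)
    · rintro (h | h)
      · left
        rw [h]
        exact Nat.beq_refl _
      · right
        cases hc : tb MO (lk t p0)
        · rfl
        · rw [hc, cond_true, anyB_iff] at hm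
          obtain ⟨k, hk, hbeq⟩ := hm
          exact absurd (by rw [hpow, ← Nat.eq_of_beq_eq_true hbeq]) (h k hk)
  rw [e, ← hpass]
  exact colO_gen b B hb n hbn hodd (gPt p0) hinj (fO p0 MO) hF κ

end Cfsg.Agent.H33.Blk
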