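import Cfsg.Agent.H33.Blk.Code
import Cfsg.Agent.H33.Blk.ColData
import Cfsg.Agent.S5607

/-!
# The number of elements of order at most 2 of `M24` (helper33)

`invs_ncard_le`: `M24` has at most `43264` elements `z` with `z * z = 1`.  The involutions form two
classes (helper94); the centraliser of a fixed-point-free involution has order `7680` (helper94,
S5607) and the order of the centraliser of the other representative is divisible by `2 ^ 10`
(an involution in the centre of a subgroup of order `2 ^ 10`), by `3` and by `7`.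
-/

set_option autoImplicit false

namespace Cfsg.Agent.H33.Blk

open Cfsg Cfsg.Agent.H9 Cfsg.Agent.H33 Cfsg.Agent.H94 Cfsg.Agent.S5608

/-- the conjugates of `t` under `M24` -/
def clM (t : Equiv.Perm GolayPt) : Set (Equiv.Perm GolayPt) := {g | ∃ k ∈ M24, k * t * k⁻¹ = g}

theorem card_clM (t : Equiv.Perm GolayPt) :
    Nat.card M24 = (clM t).ncard * Nat.card (centM t) := by
  obtain ⟨e, he⟩ : ∃ e : Equiv.Perm GolayPt ≃* ConjAct (Equiv.Perm GolayPt),
      e = ConjAct.toConjAct := ⟨_, rfl⟩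
  have hsm : ∀ k x : Equiv.Perm GolayPt, e k • x = k * x * k⁻¹ := by
    intro k x
    rw [he]
    exact ConjAct.toConjAct_smul k x
  have h := card_eq_orbit_mul_inf (M24.map e.toMonoidHom) t
  have h1 : Nat.card (M24.map e.toMonoidHom) = Nat.card M24 :=
    Subgroup.card_map_of_injective e.injective
  have h2 : MulAction.orbit (M24.map e.toMonoidHom) t = clM t := by
    ext x
    constructor
    · rintro ⟨⟨y, k, hk, rfl⟩, rfl⟩
      exact ⟨k, hk, (hsm k t).symm⟩
    · rintro ⟨k, hk, rfl⟩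
      exact ⟨⟨e k, k, hk, rfl⟩, hsm k t⟩
  have h3 : (M24.map e.toMonoidHom ⊓ MulAction.stabilizer (ConjAct (Equiv.Perm GolayPt)) t)
      = (centM t).map e.toMonoidHom := by
    ext x
    rw [Subgroup.mem_inf, MulAction.mem_stabilizer_iff, Subgroup.mem_map, Subgroup.mem_map]
    constructor
    · rintro ⟨⟨k, hk, rfl⟩, hx⟩
      refine ⟨k, ⟨hk, ?_⟩, rfl⟩
      have h4 : k * t * k⁻¹ = t := by rw [← hsm]; exact hx
      calc k * t = (k * t * k⁻¹) * k := by group
        _ = t * k := by rw [h4]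
    · rintro ⟨k, ⟨hk, hkt⟩, rfl⟩
      refine ⟨⟨k, hk, rfl⟩, ?_⟩
      show e k • t = t
      rw [hsm, hkt]
      group
  rw [h1, h2, h3, Subgroup.card_map_of_injective e.injective] at h
  exact h

theorem clB_card : (clM r0e).ncard = 31878 := by
  have h := card_clM r0e
  rw [card_M24, Cfsg.Agent.S5607.card_cent] at h
  omega

theorem c37_ok : chkInv (fldG c37 0) (fldG c37I 0) = true ∧ chkM24 (fldG c37 0) = true ∧
    commN (fldG c37 0) r8 = true ∧ fixN (pwN (fldG c37 0) 3) = 24 ∧ fixN (fldG c37 0) ≠ 24 ∧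
    chkInv (fldG c37 1) (fldG c37I 1) = true ∧ chkM24 (fldG c37 1) = true ∧
    commN (fldG c37 1) r8 = true ∧ fixN (pwN (fldG c37 1) 7) = 24 ∧ fixN (fldG c37 1) ≠ 24 := by
  decide +kernel

theorem dvd_cent {P PI : ℕ} (p : ℕ) [Fact p.Prime] (h1 : chkInv P PI = true)
    (h2 : chkM24 P = true) (h3 : commN P r8 = true) (h4 : fixN (pwN P p) = 24)
    (h5 : fixN P ≠ 24) : p ∣ Nat.card (centM r8e) := by
  have hr : Rep P (permOf P PI h1) := rep_permOf _ _ _
  have hmem : permOf P PI h1 ∈ centM r8e :=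
    ⟨permOf_mem_M24 _ _ _ h2, comm_of_commN hr r8e_rep h3⟩
  have hp : permOf P PI h1 ^ p = 1 := eq_one_of_fixN (rep_pwN hr p) h4
  have hne : permOf P PI h1 ≠ 1 := by
    intro h
    apply h5
    rw [← fix_card hr, h]
    simp [card_golayPt]
  have ho : orderOf (permOf P PI h1) = p := orderOf_eq_prime hp hne
  have := orderOf_dvd_natCard (⟨permOf P PI h1, hmem⟩ : centM r8e)
  rwa [Subgroup.orderOf_mk, ho] at this

theorem two_dvd_cent : 1024 ∣ Nat.card (centM r8e) := by
  haveI : Fact (Nat.Prime 2) := ⟨Nat.prime_two⟩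
  obtain ⟨K, hK⟩ := Sylow.exists_subgroup_card_pow_prime (G := ↥M24) 2 (n := 10)
    (by rw [card_M24]; norm_num)
  have hKp : IsPGroup 2 K := IsPGroup.of_card hK
  haveI : Nontrivial K := by
    rw [← Finite.one_lt_card_iff_nontrivial, hK]; norm_num
  haveI := hKp.center_nontrivial
  obtain ⟨z, hz⟩ := exists_ne (1 : Subgroup.center K)
  have hz1 : (z : K) ≠ 1 := fun h => hz (Subtype.ext h)
  obtain ⟨k, hk⟩ := hKp (z : K)
  obtain ⟨m, -, hm⟩ := (Nat.dvd_prime_pow Nat.prime_two).mp (orderOf_dvd_of_pow_eq_one hk)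
  have hm1 : m ≠ 0 := by
    intro h
    rw [h, pow_zero, orderOf_eq_one_iff] at hm
    exact hz1 hm
  obtain ⟨w, hw⟩ : ∃ w : K, w = (z : K) ^ (2 ^ (m - 1)) := ⟨_, rfl⟩
  have hw1 : w ≠ 1 := by
    rw [hw]
    apply pow_ne_one_of_lt_orderOf (by positivity)
    rw [hm]
    exact Nat.pow_lt_pow_right (by norm_num) (by omega)
  have hw2 : w * w = 1 := by
    rw [hw, ← pow_add, ← two_mul, ← pow_succ', Nat.sub_add_cancel (by omega), ← hm]
    exact pow_orderOf_eq_one _
  have hwc : ∀ g : K, g * w = w * g := by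
    have : w ∈ Subgroup.center K := by
      rw [hw]
      exact pow_mem z.2 _
    exact Subgroup.mem_center_iff.mp this
  obtain ⟨tp, htp⟩ : ∃ tp : Equiv.Perm GolayPt, tp = ((w : ↥M24) : Equiv.Perm GolayPt) := ⟨_, rfl⟩
  have ht1 : tp ≠ 1 := by
    intro h
    apply hw1
    apply Subtype.ext
    apply Subtype.ext
    rw [← htp, h]
    rfl
  have ht2 : tp * tp = 1 := by
    have := congrArg (fun u : K => ((u : ↥M24) : Equiv.Perm GolayPt)) hw2
    rw [htp]
    exact this
  have htm : tp ∈ M24 := by rw [htp]; exact (w : ↥M24).2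
  have ho : orderOf tp = 2 := orderOf_eq_prime (by rw [pow_two]; exact ht2) ht1
  have hle : (K.map M24.subtype) ≤ centM tp := by
    rintro x ⟨y, hy, rfl⟩
    refine ⟨y.2, ?_⟩
    have := congrArg (fun u : K => ((u : ↥M24) : Equiv.Perm GolayPt)) (hwc ⟨y, hy⟩)
    rw [htp]
    exact this
  have hcard : Nat.card (K.map M24.subtype) = 1024 := by
    rw [Subgroup.card_map_of_injective (Subgroup.subtype_injective M24), hK]
    norm_num
  have hdvd : 1024 ∣ Nat.card (centM tp) := by
    rw [← hcard]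
    exact Subgroup.card_dvd_of_le hle
  obtain ⟨c, hc, e | e⟩ := invol_conj htm ho
  · rw [card_centM_conj hc tp, e] at hdvd
    exact hdvd
  · rw [card_centM_conj hc tp, e, Cfsg.Agent.S5607.card_cent] at hdvd
    exact absurd hdvd (by decide)

theorem cent8_dvd : 21504 ∣ Nat.card (centM r8e) := by
  obtain ⟨a1, a2, a3, a4, a5, b1, b2, b3, b4, b5⟩ := c37_ok
  haveI : Fact (Nat.Prime 3) := ⟨by norm_num⟩
  haveI : Fact (Nat.Prime 7) := ⟨by norm_num⟩
  have h3 := dvd_cent 3 a1 a2 a3 a4 a5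
  have h7 := dvd_cent 7 b1 b2 b3 b4 b5
  have h := Nat.Coprime.mul_dvd_of_dvd_of_dvd (by norm_num : Nat.Coprime 1024 3) two_dvd_cent h3
  have h' := Nat.Coprime.mul_dvd_of_dvd_of_dvd (by norm_num : Nat.Coprime (1024 * 3) 7) h h7
  exact h'

theorem clA_card_le : (clM r8e).ncard ≤ 11385 := by
  have h := card_clM r8e
  rw [card_M24] at h
  obtain ⟨m, hm⟩ := cent8_dvd
  rw [hm] at h
  have hm0 : 0 < m := by
    rcases Nat.eq_zero_or_pos m with h0 | h0
    · rw [h0, Nat.mul_zero] at h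
      exact absurd h (by decide)
    · exact h0
  have h1 : (clM r8e).ncard * 21504 ≤ (clM r8e).ncard * (21504 * m) :=
    Nat.mul_le_mul_left _ (Nat.le_mul_of_pos_right _ hm0)
  rw [← h] at h1
  have h2 : (244823040 : ℕ) = 11385 * 21504 := by norm_num
  rw [h2] at h1
  exact Nat.le_of_mul_le_mul_right h1 (by norm_num)

/-- `M24` has at most `43264` elements of order at most 2 -/
theorem invs_ncard_le : {z : Equiv.Perm GolayPt | z ∈ M24 ∧ z * z = 1}.ncard ≤ 43264 := by
  have hsub : {z : Equiv.Perm GolayPt | z ∈ M24 ∧ z * z = 1} ⊆ ({1} ∪ clM r8e) ∪ clM r0e := by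
    rintro z ⟨hz, hzz⟩
    by_cases h1 : z = 1
    · left; left; exact h1
    · have ho : orderOf z = 2 := orderOf_eq_prime (by rw [pow_two]; exact hzz) h1
      obtain ⟨k, hk, e | e⟩ := invol_conj hz ho
      · left; right; exact ⟨k⁻¹, inv_mem hk, by rw [← e]; group⟩
      · right; exact ⟨k⁻¹, inv_mem hk, by rw [← e]; group⟩
  have h1 := Set.ncard_le_ncard hsub (Set.toFinite _)
  have h2 := Set.ncard_union_le ({1} ∪ clM r8e) (clM r0e)
  have h3 := Set.ncard_union_le ({1} : Set (Equiv.Perm GolayPt)) (clM r8e)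
  rw [Set.ncard_singleton] at h3
  have h4 := clB_card
  have h5 := clA_card_le
  omega

end Cfsg.Agent.H33.Blk
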