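import Cfsg.Agent.H33.Blk.InvT

/-!
# Membership check for the list of involutions, part 3 (helper33; generated)
-/

set_option autoImplicit false

namespace Cfsg.Agent.H33.Blk

open Cfsg Cfsg.Agent.H9 Cfsg.Agent.H33 Cfsg.Agent.H94

theorem mem_3 : memR 3 = true := by decide +kernel

end Cfsg.Agent.H33.Blk
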