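import Cfsg.Agent.H33.Blk.InvM0
import Cfsg.Agent.H33.Blk.InvM1
import Cfsg.Agent.H33.Blk.InvM2
import Cfsg.Agent.H33.Blk.InvM3
import Cfsg.Agent.H33.Blk.InvM4
import Cfsg.Agent.H33.Blk.InvM5
import Cfsg.Agent.H33.Blk.InvM6
import Cfsg.Agent.H33.Blk.InvM7
import Cfsg.Agent.H33.Blk.InvM8
import Cfsg.Agent.H33.Blk.InvM9
import Cfsg.Agent.H33.Blk.InvM10
import Cfsg.Agent.H33.Blk.InvM11
import Cfsg.Agent.H33.Blk.InvM12
import Cfsg.Agent.H33.Blk.InvM13
import Cfsg.Agent.H33.Blk.InvM14
import Cfsg.Agent.H33.Blk.InvM15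
import Cfsg.Agent.H33.Blk.InvCount

/-!
# The enumeration of the elements of order at most 2 of `M24` (helper33)

`Tinv n`, `n < 43264`, are the packed forms of the elements `z` of `M24` with `z * z = 1`, without
repetition (`enumI_mem`, `Tinv_inj`, `enumI_surj`).
-/

set_option autoImplicit false

namespace Cfsg.Agent.H33.Blk

open Cfsg Cfsg.Agent.H9 Cfsg.Agent.H33 Cfsg.Agent.H94

theorem chkSelf_inv {t : ℕ} (h : chkSelf t = true) : chkInv t t = true := by
  unfold chkSelf at h
  unfold chkInv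
  rw [allB_iff] at h ⊢
  intro i hi
  have h1 := h i hi
  simp only [Bool.and_eq_true] at h1 ⊢
  exact ⟨h1.1, h1.1, h1.2, h1.2⟩

theorem memR_all : ∀ d < 16, memR d = true := by
  intro d hd
  interval_cases d
  · exact mem_0
  · exact mem_1
  · exact mem_2
  · exact mem_3
  · exact mem_4
  · exact mem_5
  · exact mem_6
  · exact mem_7
  · exact mem_8
  · exact mem_9
  · exact mem_10
  · exact mem_11
  · exact mem_12
  · exact mem_13
  · exact mem_14
  · exact mem_15

theorem memC_all : ∀ c < 208, memC c = true := by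
  intro c hc
  have h := (allB_iff _ _).mp (memR_all (c / 13) (by omega)) (c % 13) (Nat.mod_lt _ (by norm_num))
  have e : Nat.add (Nat.mul (c / 13) 13) (c % 13) = c := Nat.div_add_mod' c 13
  rw [e] at h
  exact h

theorem Tinv_chunk (c k : ℕ) (hk : k < 208) : Tinv (c * 208 + k) = fldG (ichunk c) k := by
  unfold Tinv
  have h1 : Nat.div (c * 208 + k) 208 = c := by
    show (c * 208 + k) / 208 = c
    omega
  have h2 : Nat.mod (c * 208 + k) 208 = k := by
    show (c * 208 + k) % 208 = k
    omega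
  rw [h1, h2]

theorem Tinv_chk {n : ℕ} (hn : n < 43264) : chkSelf (Tinv n) = true ∧ chkM24 (Tinv n) = true := by
  have hc := memC_all (n / 208) (by omega)
  unfold memC at hc
  rw [strictB_eq] at hc
  have h := (allB_iff _ _).mp hc (n % 208) (Nat.mod_lt _ (by norm_num))
  rw [strictB_eq] at h
  simp only [Bool.and_eq_true] at h
  exact h

theorem ord_ok : allB ordC 208 = true := by decide +kernel

theorem bnd_ok : allB bndC 207 = true := by decide +kernel

theorem Tinv_step {n : ℕ} (hn : n + 1 < 43264) : Tinv n < Tinv (n + 1) := by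
  have e1 : Tinv n = fldG (ichunk (n / 208)) (n % 208) := rfl
  rw [e1]
  by_cases h : n % 208 < 207
  · have e2 : Tinv (n + 1) = fldG (ichunk (n / 208)) (n % 208 + 1) := by
      unfold Tinv
      have a : Nat.div (n + 1) 208 = n / 208 := by
        show (n + 1) / 208 = n / 208
        omega
      have b : Nat.mod (n + 1) 208 = n % 208 + 1 := by
        show (n + 1) % 208 = n % 208 + 1
        omega
      rw [a, b]
    rw [e2]
    have hc := (allB_iff _ _).mp ord_ok (n / 208) (by omega)
    unfold ordC at hc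
    rw [strictB_eq] at hc
    have h3 := (allB_iff _ _).mp hc (n % 208) h
    exact Nat.blt_eq.mp h3
  · have h207 : n % 208 = 207 := by omega
    have e2 : Tinv (n + 1) = fldG (ichunk (n / 208 + 1)) 0 := by
      unfold Tinv
      have a : Nat.div (n + 1) 208 = n / 208 + 1 := by
        show (n + 1) / 208 = n / 208 + 1
        omega
      have b : Nat.mod (n + 1) 208 = 0 := by
        show (n + 1) % 208 = 0
        omega
      rw [a, b]
    rw [e2, h207]
    have hc := (allB_iff _ _).mp bnd_ok (n / 208) (by omega)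
    exact Nat.blt_eq.mp hc

theorem Tinv_mono {m n : ℕ} (hmn : m < n) (hn : n < 43264) : Tinv m < Tinv n := by
  induction n with
  | zero => omega
  | succ n ih =>
    rcases Nat.lt_succ_iff_lt_or_eq.mp hmn with h | h
    · exact lt_trans (ih h (by omega)) (Tinv_step hn)
    · rw [h]
      exact Tinv_step hn

theorem Tinv_inj {m n : ℕ} (hm : m < 43264) (hn : n < 43264) (h : Tinv m = Tinv n) : m = n := by
  rcases Nat.lt_trichotomy m n with h1 | h1 | h1
  · exact absurd h (ne_of_lt (Tinv_mono h1 hn))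
  · exact h1
  · exact absurd h.symm (ne_of_lt (Tinv_mono h1 hm))

theorem Tinv_lt (n : ℕ) : Tinv n < 2 ^ 120 := fldG_lt _ _

/-- a packed permutation that is its own inverse gives an element of square one -/
theorem permOf_self_sq {t : ℕ} (hi : chkInv t t = true) : permOf t t hi * permOf t t hi = 1 := by
  have e : (permOf t t hi)⁻¹ = permOf t t hi :=
    rep_uniq (rep_permOf_inv t t hi) (rep_permOf t t hi)
  calc permOf t t hi * permOf t t hi = (permOf t t hi)⁻¹ * permOf t t hi := by rw [e]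
    _ = 1 := inv_mul_cancel _

theorem enumI_mem {n : ℕ} (hn : n < 43264) : ∃ z : ↥M24, z * z = 1 ∧ Rep (Tinv n) z.1 := by
  obtain ⟨h1, h2⟩ := Tinv_chk hn
  have hi := chkSelf_inv h1
  refine ⟨⟨permOf _ _ hi, permOf_mem_M24 _ _ hi h2⟩, ?_, rep_permOf _ _ hi⟩
  apply Subtype.ext
  exact permOf_self_sq hi

theorem enumI_surj (z : ↥M24) (hz : z * z = 1) : ∃ n < 43264, Rep (Tinv n) z.1 := by
  classical
  obtain ⟨f, hf⟩ : ∃ f : Fin 43264 → Equiv.Perm GolayPt,
      ∀ n : Fin 43264, f n ∈ M24 ∧ f n * f n = 1 ∧ Rep (Tinv n) (f n) := by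
    have h : ∀ n : Fin 43264, ∃ g : Equiv.Perm GolayPt, g ∈ M24 ∧ g * g = 1 ∧ Rep (Tinv n) g := by
      intro n
      obtain ⟨y, hy, hr⟩ := enumI_mem n.2
      exact ⟨y.1, y.2, congrArg Subtype.val hy, hr⟩
    exact ⟨fun n => Classical.choose (h n), fun n => Classical.choose_spec (h n)⟩
  have hinj : Function.Injective f := by
    intro m n hmn
    have h1 := (hf m).2.2
    have h2 := (hf n).2.2
    rw [hmn] at h1
    exact Fin.ext (Tinv_inj m.2 n.2 (canon_rep (Tinv_lt _) (Tinv_lt _) h1 h2))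
  have hsub : Set.range f ⊆ {g : Equiv.Perm GolayPt | g ∈ M24 ∧ g * g = 1} := by
    rintro _ ⟨n, rfl⟩
    exact ⟨(hf n).1, (hf n).2.1⟩
  have hcard : (Set.range f).ncard = 43264 := by
    rw [← Set.image_univ, Set.ncard_image_of_injective _ hinj, Set.ncard_univ, Nat.card_fin]
  have heq := Set.eq_of_subset_of_ncard_le hsub (by rw [hcard]; exact invs_ncard_le)
    (Set.toFinite _)
  have hzm : z.1 ∈ Set.range f := by
    rw [heq]
    exact ⟨z.2, congrArg Subtype.val hz⟩
  obtain ⟨n, hn⟩ := hzm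
  refine ⟨n, n.2, ?_⟩
  rw [← hn]
  exact (hf n).2.2

end Cfsg.Agent.H33.Blk
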