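import Cfsg.Agent.H33.Blk.Alg
import Cfsg.Agent.H33.Blk.Cols

/-!
# `M24` has a single 2-block (helper33)

The class data of `M24` (`clsM`): the invariant `cdG`, the 21 representatives `rhoG j`.  The
parities of the coefficients of the squares of the class sums (`col_all`) are triangular enough for
`sameBlock_main`.
-/

set_option autoImplicit false

namespace Cfsg.Agent.H33.Blk

open Cfsg Cfsg.Agent.H9 Cfsg.Agent.H33 Cfsg.Agent.H94

/-- the parities of the coefficients of the squares of the class sums -/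
def Sn (i j : ℕ) : Bool := (Etab j).testBit (cdN (fldG RR i))

/-- the values of the central characters modulo 2 -/
def epsN (j : ℕ) : Bool := Nat.blt j 2

/-- a rank function making the squaring map triangular -/
def rkN (j : ℕ) : ℕ := [0, 2, 2, 1, 0, 1, 1, 0, 0, 1].getD j 0

theorem fin_chk : allB (fun i =>
    allB (fun j => !(Sn i j) || (Nat.beq j 0 || Nat.blt (rkN j) (rkN i))) 21 &&
    Nat.beq (Nat.mod (sumB (fun j => if (Sn i j && epsN j) = true then 1 else 0) 21) 2)
      (if epsN i = true then 1 else 0)) 21 = true := by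
  decide +kernel

theorem inj_chk : allB (fun i => allB (fun j => Nat.beq i j ||
    !(Nat.beq (cdN (fldG RR i)) (cdN (fldG RR j)))) 21) 21 = true ∧
    cdN (fldG RR 0) = 25368 := by decide +kernel

theorem cdG_rho {j : ℕ} (hj : j < 21) : cdG (rhoG j) = cdN (fldG RR j) :=
  (cdN_eq (rhoG_rep hj)).symm

theorem sum_fin_sumB (f : ℕ → ℕ) (n : ℕ) : (∑ j : Fin n, f j.1) = sumB f n := by
  rw [Fin.sum_univ_eq_sum_range]
  induction n with
  | zero => rfl
  | succ n ih =>
    rw [Finset.sum_range_succ, ih]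
    show sumB f n + f n = Nat.add (f n) (sumB f n)
    exact Nat.add_comm _ _

theorem fx_le (g : Equiv.Perm GolayPt) : fx g ≤ 24 := by
  unfold fx
  calc (Finset.univ.filter fun p => g p = p).card ≤ (Finset.univ : Finset GolayPt).card :=
        Finset.card_filter_le _ _
    _ = 24 := by rw [Finset.card_univ, card_golayPt]

theorem eq_one_of_cdP {g : Equiv.Perm GolayPt} (h : cdP g = 25368) : g = 1 := by
  unfold cdP at h
  have h1 := fx_le g
  have h2 := fx_le (g * g)
  have h3 := fx_le (g * (g * g))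
  have h4 : cd3 g = 1 * fx g + (32 * fx (g * g) + 1024 * fx (g * (g * g))) := rfl
  have h5 : cdS g = 32768 + (1 * fx ((g * g) * (g * g))
      + 32 * fx ((g * g) * ((g * g) * (g * g)))) := rfl
  have h24 : fx g = 24 := by
    rcases Nat.eq_zero_or_pos (cd3 g) with h0 | h0
    · rw [h0] at h
      have e : sel 0 (cdS g) = cdS g := rfl
      rw [e, h5] at h
      omega
    · obtain ⟨n, hn⟩ : ∃ n, cd3 g = n + 1 := ⟨cd3 g - 1, by omega⟩
      rw [hn] at h
      have e : sel (n + 1) (cdS g) = n + 1 := rfl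
      rw [e] at h
      omega
  unfold fx at h24
  have h6 : (Finset.univ.filter fun p => g p = p).card = (Finset.univ : Finset GolayPt).card := by
    rw [h24, Finset.card_univ, card_golayPt]
  rw [Finset.card_filter_eq_iff] at h6
  exact Equiv.ext fun p => h6 p (Finset.mem_univ p)

/-- the class data of `M24` -/
noncomputable def clsM : ClsData ↥M24 21 where
  cd := cdG
  rho := fun j => rhoG j.1
  cd_conj := cdG_conj
  cd_inv := cdG_inv
  cl := by
    intro g
    obtain ⟨k, hk, j, hj, h | h⟩ := cl_main g.2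
    · exact ⟨⟨j, hj⟩, ⟨k, hk⟩, Or.inl (Subtype.ext h)⟩
    · exact ⟨⟨j, hj⟩, ⟨k, hk⟩, Or.inr (Subtype.ext h)⟩
  inj := by
    intro i j h
    rw [cdG_rho i.2, cdG_rho j.2] at h
    have h1 := (allB_iff _ _).mp ((allB_iff _ _).mp inj_chk.1 i.1 i.2) j.1 j.2
    rw [h, Nat.beq_refl, Bool.not_true, Bool.or_false] at h1
    exact Fin.ext (Nat.eq_of_beq_eq_true h1)

theorem fin_i {i : ℕ} (hi : i < 21) :
    allB (fun j => !(Sn i j) || (Nat.beq j 0 || Nat.blt (rkN j) (rkN i))) 21 = true ∧
    Nat.beq (Nat.mod (sumB (fun j => if (Sn i j && epsN j) = true then 1 else 0) 21) 2)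
      (if epsN i = true then 1 else 0) = true :=
  Bool.and_eq_true_iff.mp ((allB_iff _ _).mp fin_chk i hi)

theorem rk_ok {i j : ℕ} (hi : i < 21) (hj : j < 21) (h : Sn i j = true) :
    j = 0 ∨ rkN j < rkN i := by
  have h2 : (!(Sn i j) || (Nat.beq j 0 || Nat.blt (rkN j) (rkN i))) = true :=
    (allB_iff _ _).mp (fin_i hi).1 j hj
  rw [h, Bool.not_true, Bool.false_or] at h2
  rcases Bool.or_eq_true_iff.mp h2 with h3 | h3
  · exact Or.inl (Nat.eq_of_beq_eq_true h3)
  · exact Or.inr (Nat.blt_eq.mp h3)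

theorem eps_ok {i : ℕ} (hi : i < 21) :
    sumB (fun j => if (Sn i j && epsN j) = true then 1 else 0) 21 % 2
      = if epsN i = true then 1 else 0 :=
  Nat.eq_of_beq_eq_true (fin_i hi).2

theorem col_S [Fintype ↥M24] {i j : ℕ} (hi : i < 21) (hj : j < 21) :
    (Finset.univ.filter fun x : ↥M24 => cdG x = cdG (rhoG i)
      ∧ cdG (x⁻¹ * rhoG j) = cdG (rhoG i)).card % 2 = if Sn i j = true then 1 else 0 := by
  rw [cdG_rho hi]
  exact col_all j hj (cdN (fldG RR i))

theorem real_ok {j : ℕ} (hj : epsN j = true) : (rhoG j)⁻¹ = rhoG j := by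
  have hj2 : j < 2 := Nat.blt_eq.mp hj
  rcases Nat.lt_succ_iff_lt_or_eq.mp hj2 with h | h
  · have h0 : j = 0 := by omega
    rw [h0]
    have e : rhoG 0 = 1 := Subtype.ext rho0
    rw [e, inv_one]
  · rw [h]
    have e : rhoG 1 = invA := Subtype.ext rho1
    rw [e]
    exact inv_eq_of_mul_eq_one_left invA_sq

/-- all irreducible characters of `M24` lie in one 2-block -/
theorem m24_sameBlock (M : Ideal AlgInt) (hM : IsPModular 2 M) (χ ψ : IrrCharacter ↥M24) :
    SameBlock M (χ : ↥M24 → ℂ) (ψ : ↥M24 → ℂ) := by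
  classical
  letI : Fintype ↥M24 := Fintype.ofFinite _
  refine sameBlock_main clsM hM ?_ ?_ (fun i j => Sn i.1 j.1) ?_ (fun j => epsN j.1)
    (fun j => rkN j.1) ?_ ?_ ?_ ?_ χ ψ
  · exact Subtype.ext rho0
  · intro x hx
    have h1 : cdG x = cdG (rhoG 0) := hx
    rw [cdG_rho (by norm_num), inj_chk.2] at h1
    exact Subtype.ext (eq_one_of_cdP h1)
  · intro i j
    exact col_S i.2 j.2
  · intro i j hS
    rcases rk_ok i.2 j.2 hS with h | h
    · exact Or.inl (Fin.ext h)
    · exact Or.inr h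
  · intro i
    have e := sum_fin_sumB (fun n => if (Sn i.1 n && epsN n) = true then 1 else 0) 21
    exact (congrArg (· % 2) e).trans (eps_ok i.2)
  · exact Nat.blt_eq.mpr (by norm_num)
  · intro j hj
    exact real_ok hj

end Cfsg.Agent.H33.Blk
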